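/-
Automorphisms of `PSU`: abstract Hermitian spaces, fixed vectors of `p`-groups, hyperbolic decompositions.
-/
import Mathlib
import Cfsg.Agent.Lib.Classical.UTBridge
import Cfsg.Agent.Lib.Classical.UTSimple2

set_option autoImplicit false
set_option linter.unusedSectionVars false
set_option linter.unusedVariables false

namespace Cfsg.Agent.Lib.AutPSU

open Module Cfsg.Agent.Lib.Classical Cfsg.Agent.Lib.Classical.UT

variable {F : Type*} [Field F] [Fintype F] {q : ℕ} {hF : Fintype.card F = q ^ 2}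
variable {V : Type*} [AddCommGroup V] [Module F V] {B : V →ₛₗ[conjQ hF] V →ₗ[F] F}

/-- A `p`-group acting on a finite set with a fixed point and with `p` dividing the cardinality has another. -/
lemma exists_fixed_ne {p : ℕ} [hp : Fact p.Prime] {T : Type*} [Group T] (hT : IsPGroup p T) {X : Type*} [Finite X]
    (act : T → X → X) (h1 : ∀ x, act 1 x = x) (hm : ∀ s t x, act (s * t) x = act s (act t x))
    {x₀ : X} (hx₀ : ∀ t, act t x₀ = x₀) (hd : p ∣ Nat.card X) :
    ∃ x, x ≠ x₀ ∧ ∀ t, act t x = x := by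
  let _ : MulAction T X := { smul := act, one_smul := h1, mul_smul := hm }
  have h1 : x₀ ∈ MulAction.fixedPoints T X := fun t => hx₀ t
  obtain ⟨b, hb, hne⟩ := hT.exists_fixed_point_of_prime_dvd_card_of_fixed_point X hd h1
  exact ⟨b, hne.symm, fun t => hb t⟩

lemma prime_dvd_card_module {p : ℕ} [hp : Fact p.Prime] [CharP F p] {U : Type*} [AddCommGroup U] [Module F U]
    [FiniteDimensional F U] (hU : 1 ≤ finrank F U) : p ∣ Nat.card U := by
  have h1 : p ∣ Fintype.card F := by
    have := Nat.cast_card_eq_zero F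
    exact (CharP.cast_eq_zero_iff F p _).mp this
  have : Finite U := Module.finite_of_finite F
  have h2 : Nat.card U = Fintype.card F ^ finrank F U := by
    classical
    have := Fintype.ofFinite U
    rw [Nat.card_eq_fintype_card]
    exact Module.card_eq_pow_finrank (K := F) (V := U)
  rw [h2]
  exact h1.trans (dvd_pow_self _ (by omega))

/-- A `p`-group acting linearly fixes a non-zero vector. -/
lemma exists_fixed_vec {p : ℕ} [hp : Fact p.Prime] [CharP F p] {T : Type*} [Group T] (hT : IsPGroup p T)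
    {U : Type*} [AddCommGroup U] [Module F U] [FiniteDimensional F U] (hU : 1 ≤ finrank F U)
    (act : T →* Module.End F U) : ∃ x : U, x ≠ 0 ∧ ∀ t, act t x = x := by
  have : Finite U := Module.finite_of_finite F
  obtain ⟨x, hx, h⟩ := exists_fixed_ne hT (fun t (x : U) => act t x) (by simp) (by simp [Module.End.mul_apply])
    (x₀ := (0 : U)) (fun t => map_zero (act t)) (prime_dvd_card_module hU)
  exact ⟨x, hx, h⟩

/-- A `p`-group acting by isometries on a Hermitian space of dimension at least two fixes a non-zero isotropic vector. -/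
theorem fixed_iso {p : ℕ} [hp : Fact p.Prime] [CharP F p] [FiniteDimensional F V] (hS : B.IsSymm) (hB : B.Nondegenerate)
    (hV : 2 ≤ finrank F V) {T : Type*} [Group T] (hT : IsPGroup p T) (act : T →* Module.End F V)
    (hiso : ∀ t x y, B (act t x) (act t y) = B x y) :
    ∃ u : V, u ≠ 0 ∧ B u u = 0 ∧ ∀ t, act t u = u := by
  obtain ⟨x, hx0, hx⟩ := exists_fixed_vec hT (by omega) act
  by_cases hxx : B x x = 0
  · exact ⟨x, hx0, hxx, hx⟩
  have h1 := finrank_perp hxx
  -- action on the perp
  have hmem : ∀ t (y : perpV B x), act t y ∈ perpV B x := by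
    intro t y
    rw [mem_perpV]
    have := hiso t x y
    rw [hx t] at this
    rw [this]
    exact mem_perpV.mp y.2
  let act₂ : T →* Module.End F (perpV B x) :=
    { toFun := fun t => LinearMap.restrict (act t) (fun y hy => hmem t ⟨y, hy⟩)
      map_one' := by
        ext y
        simp [LinearMap.restrict_apply]
      map_mul' := fun a b => by
        ext y
        simp [LinearMap.restrict_apply] }
  obtain ⟨y, hy0, hy⟩ := exists_fixed_vec hT (by omega) act₂
  have hy' : ∀ t, act t (y : V) = y := fun t => congrArg Subtype.val (hy t)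
  have hy0' : (y : V) ≠ 0 := fun h => hy0 (Subtype.ext h)
  by_cases hyy : B y y = 0
  · exact ⟨y, hy0', hyy, hy'⟩
  have hxy : B x y = 0 := mem_perpV.mp y.2
  have hyx := flip_zero hS hxy
  obtain ⟨ρ, hρ⟩ := exists_norm (hF := hF) (ν := - B x x / B y y) (by
    rw [div_pow, conjQ_neg hF, flip_eq hS, flip_eq hS])
  have h4 : ρ ^ q * ρ * B y y = - B x x := by
    rw [hρ]
    field_simp
  refine ⟨x + ρ • (y : V), ?_, ?_, ?_⟩
  · intro h0
    apply hxx
    have h3 : B x (x + ρ • (y : V)) = B x x := by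
      rw [add_r, smul_r, hxy]
      ring
    rw [← h3, h0, zero_r]
  · simp only [add_l, add_r, smul_l, smul_r, hxy, hyx]
    linear_combination h4
  · intro t
    rw [map_add, map_smul, hx, hy']

/-- Elements of a finite field are `F_q`-combinations of `1` and any non-fixed element. -/
lemma two_gen (hF : Fintype.card F = q ^ 2) {s : F} (hs : s ^ q ≠ s) (a : F) :
    ∃ α β : F, α ^ q = α ∧ β ^ q = β ∧ a = α + β * s := by
  have hd : s - s ^ q ≠ 0 := sub_ne_zero.mpr (Ne.symm hs)
  have hd' : s ^ q - s ≠ 0 := sub_ne_zero.mpr hs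
  have hc : (s - s ^ q) ^ q = s ^ q - s := by
    rw [conjQ_sub hF, pow_q_pow_q hF]
  have hc2 : (a - a ^ q) ^ q = a ^ q - a := by
    rw [conjQ_sub hF, pow_q_pow_q hF]
  set β := (a - a ^ q) / (s - s ^ q) with hβ
  have hβq : β ^ q = β := by
    rw [hβ, div_pow, hc, hc2]
    field_simp
    ring
  refine ⟨a - β * s, β, ?_, hβq, by ring⟩
  rw [conjQ_sub hF, mul_pow, hβq]
  have : β * (s - s ^ q) = a - a ^ q := by
    rw [hβ]
    field_simp
  linear_combination this

/-- A power not fixed by the `q`-power map. -/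
lemma exists_pow_not_fixed (hF : Fintype.card F = q ^ 2) {k : ℕ} (hk : ¬ (q + 1) ∣ k) :
    ∃ l : F, l ≠ 0 ∧ (l ^ k) ^ q ≠ l ^ k := by
  have hq := one_lt_q hF
  classical
  obtain ⟨g, hg⟩ := IsCyclic.exists_generator (α := Fˣ)
  have hord : orderOf g = q ^ 2 - 1 := by
    rw [orderOf_eq_card_of_forall_mem_zpowers hg, Nat.card_eq_fintype_card, Fintype.card_units, hF]
  refine ⟨g, g.ne_zero, ?_⟩
  intro h
  have h1 : ((g : F) ^ k) ^ (q - 1) = 1 := by
    have h2 : ((g : F) ^ k) ^ q = (g : F) ^ k * ((g : F) ^ k) ^ (q - 1) := by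
      rw [← pow_succ', Nat.sub_add_cancel (by omega)]
    rw [h2] at h
    exact mul_left_cancel₀ (pow_ne_zero _ g.ne_zero) (by rw [h, mul_one])
  have h2 : g ^ (k * (q - 1)) = 1 := by
    apply Units.ext
    rw [Units.val_pow_eq_pow_val, pow_mul, Units.val_one, h1]
  have h3 := orderOf_dvd_of_pow_eq_one h2
  rw [hord] at h3
  have h4 : q ^ 2 - 1 = (q + 1) * (q - 1) := by
    obtain ⟨r, rfl⟩ : ∃ r, q = r + 1 := ⟨q - 1, by omega⟩
    simp only [Nat.add_sub_cancel]
    have : (r + 1) ^ 2 = (r + 1 + 1) * r + 1 := by ring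
    omega
  rw [h4] at h3
  exact hk (Nat.dvd_of_mul_dvd_mul_right (by omega) h3)

/-! ### Hyperbolic decomposition -/

/-- The orthogonal complement of a hyperbolic pair. -/
noncomputable abbrev WW (B : V →ₛₗ[conjQ hF] V →ₗ[F] F) (e f : V) : Submodule F V := perpV B e ⊓ perpV B f

lemma mem_WW {e f x : V} : x ∈ WW B e f ↔ B e x = 0 ∧ B f x = 0 := by
  rw [Submodule.mem_inf, mem_perpV, mem_perpV]

/-- The form on the complement. -/
noncomputable abbrev BW (B : V →ₛₗ[conjQ hF] V →ₗ[F] F) (e f : V) :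
    WW B e f →ₛₗ[conjQ hF] WW B e f →ₗ[F] F := B.domRestrict₁₂ (WW B e f) (WW B e f)

lemma BW_apply {e f : V} (a b : WW B e f) : BW B e f a b = B a b := rfl

lemma BW_symm (hS : B.IsSymm) (e f : V) : (BW B e f).IsSymm :=
  ⟨fun a b => hS.eq (a : V) (b : V)⟩

/-- A hyperbolic pair. -/
structure HP (B : V →ₛₗ[conjQ hF] V →ₗ[F] F) (e f : V) : Prop where
  ee : B e e = 0
  ff : B f f = 0
  ef : B e f = 1
  fe : B f e = 1

lemma HP.symm {e f : V} (h : HP B e f) : HP B f e := ⟨h.ff, h.ee, h.fe, h.ef⟩

lemma HP.e_ne {e f : V} (h : HP B e f) : e ≠ 0 := by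
  rintro rfl
  have := h.ef
  rw [zero_l] at this
  exact zero_ne_one this

lemma HP.f_ne {e f : V} (h : HP B e f) : f ≠ 0 := by
  rintro rfl
  have := h.ef
  rw [zero_r] at this
  exact zero_ne_one this

section hp

variable {e f : V} (h : HP B e f)
include h

/-- The projection to the complement. -/
noncomputable def prW : V →ₗ[F] WW B e f :=
  LinearMap.codRestrict (WW B e f) (LinearMap.id - (B f).smulRight e - (B e).smulRight f) (by
    intro x
    rw [mem_WW]
    simp only [LinearMap.sub_apply, LinearMap.id_apply, LinearMap.smulRight_apply, sub_r, smul_r, h.ee, h.ef, h.ff, h.fe]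
    constructor <;> ring)

lemma prW_coe (x : V) : (prW h x : V) = x - B f x • e - B e x • f := by
  simp [prW]

lemma decomp (x : V) : x = B f x • e + B e x • f + (prW h x : V) := by
  rw [prW_coe]
  abel

lemma prW_e : prW h e = 0 := by
  apply Subtype.ext
  rw [prW_coe, h.fe, h.ee]
  simp

lemma prW_f : prW h f = 0 := by
  apply Subtype.ext
  rw [prW_coe, h.ff, h.ef]
  simp

lemma prW_W (w : WW B e f) : prW h (w : V) = w := by
  apply Subtype.ext
  have hw := mem_WW.mp w.2
  rw [prW_coe, hw.1, hw.2]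
  simp

/-- The form through the decomposition. -/
lemma form_decomp (hS : B.IsSymm) (x y : V) :
    B x y = (B f x) ^ q * B e y + (B e x) ^ q * B f y + B (prW h x : V) (prW h y : V) := by
  have hw1 := mem_WW.mp (prW h x).2
  have hw2 := mem_WW.mp (prW h y).2
  have hw3 := flip_zero hS hw1.1
  have hw4 := flip_zero hS hw1.2
  have e1 := decomp h x
  have e2 := decomp h y
  set a := B f x
  set b := B e x
  set c := B f y
  set d := B e y
  set xw := (prW h x : V)
  set yw := (prW h y : V)
  rw [e1, e2]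
  simp only [add_l, add_r, smul_l, smul_r, h.ee, h.ef, h.ff, h.fe, hw1.1, hw1.2, hw2.1, hw2.2, hw3, hw4]
  ring

/-- The linear decomposition. -/
noncomputable def splitV : V ≃ₗ[F] (F × F × WW B e f) where
  toFun x := (B f x, B e x, prW h x)
  map_add' x y := by simp
  map_smul' a x := by simp
  invFun t := t.1 • e + t.2.1 • f + (t.2.2 : V)
  left_inv x := (decomp h x).symm
  right_inv := by
    rintro ⟨a, b, w⟩
    have hw := mem_WW.mp w.2
    refine Prod.ext ?_ (Prod.ext ?_ ?_)
    · simp [h.fe, h.ff, hw.2]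
    · simp [h.ee, h.ef, hw.1]
    · simp only [map_add, map_smul, prW_e h, prW_f h, prW_W h]
      simp

lemma finrank_WW [FiniteDimensional F V] : finrank F (WW B e f) + 2 = finrank F V := by
  rw [(splitV h).finrank_eq, Module.finrank_prod, Module.finrank_prod, Module.finrank_self]
  omega

lemma BW_nondeg (hS : B.IsSymm) (hB : B.Nondegenerate) : (BW B e f).Nondegenerate := by
  have hL : (BW B e f).SeparatingLeft := by
    intro a ha
    apply Subtype.ext
    apply hB.1
    intro y
    have h1 := ha (prW h y)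
    rw [BW_apply, prW_coe] at h1
    have h2 := mem_WW.mp a.2
    have h3 := flip_zero hS h2.1
    have h4 := flip_zero hS h2.2
    simpa [sub_r, smul_r, h3, h4] using h1
  refine ⟨hL, ?_⟩
  intro a ha
  apply hL
  intro b
  exact flip_zero (BW_symm hS e f) (ha b)

end hp

/-- A hyperbolic partner for an isotropic vector. -/
lemma exists_HP [FiniteDimensional F V] (hS : B.IsSymm) (hB : B.Nondegenerate) {u : V} (hu : u ≠ 0) (huu : B u u = 0) :
    ∃ f, HP B u f := by
  obtain ⟨f, h1, h2, h3⟩ := exists_partner hS hB hu huu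
  exact ⟨f, ⟨huu, h3, h1, h2⟩⟩

/-! ### The group elements as maps -/

/-- The hyperbolic torus map. -/
noncomputable def hy (B : V →ₛₗ[conjQ hF] V →ₗ[F] F) (a b : V) (l m : F) : V →ₗ[F] V :=
  LinearMap.id + ((l - 1) • B b).smulRight a + ((m - 1) • B a).smulRight b

lemma hy_apply (a b : V) (l m : F) (x : V) :
    hy B a b l m x = x + ((l - 1) * B b x) • a + ((m - 1) * B a x) • b := by
  simp [hy]

lemma hy_left {a b : V} (h : HP B a b) (l m : F) : hy B a b l m a = l • a := by
  rw [hy_apply, h.fe, h.ee]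
  simp only [mul_one, mul_zero, zero_smul, add_zero]
  rw [sub_smul, one_smul]
  abel

lemma hy_right {a b : V} (h : HP B a b) (l m : F) : hy B a b l m b = m • b := by
  rw [hy_apply, h.ff, h.ef]
  simp only [mul_one, mul_zero, zero_smul, add_zero]
  rw [sub_smul, one_smul]
  abel

lemma hy_perp {a b x : V} (h1 : B a x = 0) (h2 : B b x = 0) (l m : F) : hy B a b l m x = x := by
  rw [hy_apply, h1, h2]
  simp

lemma hy_iso (hS : B.IsSymm) {a b : V} (h : HP B a b) {l m : F} (h1 : l ^ q * m = 1) (h2 : m ^ q * l = 1) (x y : V) :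
    B (hy B a b l m x) (hy B a b l m y) = B x y := by
  have e1 := flip_eq hS a x
  have e2 := flip_eq hS b x
  have s1 : (l - 1) ^ q = l ^ q - 1 := by rw [conjQ_sub hF, one_pow]
  have s2 : (m - 1) ^ q = m ^ q - 1 := by rw [conjQ_sub hF, one_pow]
  simp only [hy_apply, add_l, add_r, smul_l, smul_r, h.ee, h.ff, h.ef, h.fe, mul_pow, s1, s2, ← e1, ← e2]
  linear_combination (B b x ^ q * B a y) * h1 + (B a x ^ q * B b y) * h2

lemma hy_det {a b : V} [FiniteDimensional F V] (h : HP B a b) (l m : F) : LinearMap.det (hy B a b l m) = l * m := by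
  have h1 : hy B a b l m = LinearMap.transvection ((l - 1) • B b) a ∘ₗ LinearMap.transvection ((m - 1) • B a) b := by
    ext x
    simp only [hy_apply, LinearMap.comp_apply, LinearMap.transvection.apply, LinearMap.smul_apply, smul_eq_mul,
      add_r, smul_r, h.ff, mul_zero, add_zero]
    (module)
  rw [h1, LinearMap.det_comp, LinearMap.transvection.det, LinearMap.transvection.det]
  simp [h.fe, h.ef]

/-- The reflection-like map. -/
noncomputable def rf (B : V →ₛₗ[conjQ hF] V →ₗ[F] F) (d : V) (m : F) : V →ₗ[F] V :=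
  LinearMap.id + (((m - 1) * (B d d)⁻¹) • B d).smulRight d

lemma rf_apply (d : V) (m : F) (x : V) : rf B d m x = x + ((m - 1) * (B d d)⁻¹ * B d x) • d := by
  simp [rf]

lemma rf_self {d : V} (hd : B d d ≠ 0) (m : F) : rf B d m d = m • d := by
  rw [rf_apply, mul_assoc, inv_mul_cancel₀ hd, mul_one, sub_smul, one_smul]
  abel

lemma rf_perp {d x : V} (h : B d x = 0) (m : F) : rf B d m x = x := by
  rw [rf_apply, h]
  simp

lemma rf_iso (hS : B.IsSymm) {d : V} (hd : B d d ≠ 0) {m : F} (h1 : m ^ q * m = 1) (x y : V) :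
    B (rf B d m x) (rf B d m y) = B x y := by
  have e1 := flip_eq hS d x
  have s1 : (m - 1) ^ q = m ^ q - 1 := by rw [conjQ_sub hF, one_pow]
  have s2 : ((B d d)⁻¹) ^ q = (B d d)⁻¹ := by rw [inv_pow, flip_eq hS]
  simp only [rf_apply, add_l, add_r, smul_l, smul_r, mul_pow, s1, s2, ← e1]
  field_simp
  linear_combination (B d y * B d x ^ q) * h1

lemma rf_det [FiniteDimensional F V] {d : V} (hd : B d d ≠ 0) (m : F) : LinearMap.det (rf B d m) = m := by
  have h1 : rf B d m = LinearMap.transvection (((m - 1) * (B d d)⁻¹) • B d) d := by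
    ext x
    simp [rf_apply, LinearMap.transvection.apply]
  rw [h1, LinearMap.transvection.det]
  simp only [LinearMap.smul_apply, smul_eq_mul]
  rw [mul_assoc, inv_mul_cancel₀ hd]
  ring

end Cfsg.Agent.Lib.AutPSU
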