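/-
Automorphisms of `PSU`: a group faithfully representing the isometries of determinant one of a Hermitian space.
-/
import Mathlib
import Cfsg.Agent.Lib.AutPSU.Abs

set_option autoImplicit false
set_option linter.unusedSectionVars false
set_option linter.unusedVariables false

namespace Cfsg.Agent.Lib.AutPSU

open Module Cfsg.Agent.Lib.Classical Cfsg.Agent.Lib.Classical.UT

variable {F : Type*} [Field F] [Fintype F] {q : ℕ} {hF : Fintype.card F = q ^ 2}
variable {V : Type*} [AddCommGroup V] [Module F V] [FiniteDimensional F V]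

/-- A group faithfully representing the isometries of determinant one. -/
structure Rep (B : V →ₛₗ[conjQ hF] V →ₗ[F] F) (G : Type*) [Group G] where
  ac : G →* (V ≃ₗ[F] V)
  inj : Function.Injective ac
  iso : ∀ g x y, B (ac g x) (ac g y) = B x y
  det : ∀ g, LinearEquiv.det (ac g) = 1
  surj : ∀ t : V ≃ₗ[F] V, (∀ x y, B (t x) (t y) = B x y) → LinearEquiv.det t = 1 → ∃ g, ac g = t
  S : B.IsSymm
  N : B.Nondegenerate
  dim : 3 ≤ finrank F V
  gen : finrank F V ≠ 3 ∨ q ≠ 2

/-- Admissible parameters of a Heisenberg map. -/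
structure Adm (B : V →ₛₗ[conjQ hF] V →ₗ[F] F) (v u : V) (s : F) : Prop where
  vv : B v v = 0
  uv : B u v = 0
  vu : B v u = 0
  tr : s + s ^ q + B u u = 0

variable {B : V →ₛₗ[conjQ hF] V →ₗ[F] F} {G : Type*} [Group G] (R : Rep B G)

/-! ### Scalars -/

/-- Proportional transvections. -/
lemma tv_scalar (hS : B.IsSymm) (hB : B.Nondegenerate) {a b : V} {c d l : F} (ha : a ≠ 0) (haa : B a a = 0)
    (hbb : B b b = 0) (hc : c ≠ 0) (h : ∀ x, tv B a c x = l • tv B b d x) :
    l = 1 ∧ d ≠ 0 ∧ ∃ μ : F, b = μ • a := by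
  have h1 := h a
  rw [tv_apply, tv_apply, haa, mul_zero, zero_smul, add_zero] at h1
  have hl0 : l ≠ 0 := by
    rintro rfl
    rw [zero_smul] at h1
    exact ha h1
  have hdb : d * B b a = 0 := by
    by_contra hne
    have h2 : (l * (d * B b a)) • b = (1 - l) • a := by
      rw [smul_add, smul_smul] at h1
      rw [sub_smul, one_smul]
      nth_rw 2 [h1]
      abel
    have h3 : l * (d * B b a) ≠ 0 := mul_ne_zero hl0 hne
    have h4 : b = ((l * (d * B b a))⁻¹ * (1 - l)) • a := by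
      rw [mul_smul, ← h2, smul_smul, inv_mul_cancel₀ h3, one_smul]
    apply hne
    have h5 : B b a = 0 := by
      rw [h4, smul_l, haa, mul_zero]
    rw [h5, mul_zero]
  have hl1 : l = 1 := by
    rw [hdb, zero_smul, add_zero] at h1
    have h2 : (1 - l) • a = 0 := by
      rw [sub_smul, one_smul]
      nth_rw 1 [h1]
      abel
    have h3 := (smul_eq_zero.mp h2).resolve_right ha
    exact (sub_eq_zero.mp h3).symm
  subst hl1
  obtain ⟨x, hx⟩ : ∃ x, B a x ≠ 0 := by
    by_contra hcon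
    push Not at hcon
    exact ha (hB.1 a hcon)
  have h2 := h x
  rw [one_smul, tv_apply, tv_apply] at h2
  have h3 : (c * B a x) • a = (d * B b x) • b := add_left_cancel h2
  have h4 : c * B a x ≠ 0 := mul_ne_zero hc hx
  have h5 : d * B b x ≠ 0 := by
    intro h0
    rw [h0, zero_smul] at h3
    exact ha ((smul_eq_zero.mp h3).resolve_left h4)
  refine ⟨rfl, left_ne_zero_of_mul h5, ((d * B b x)⁻¹ * (c * B a x)), ?_⟩
  rw [mul_smul, h3, smul_smul, inv_mul_cancel₀ h5, one_smul]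


lemma Adm.mk' {v u : V} {s : F} (hS : B.IsSymm) (hv : B v v = 0) (hvu : B v u = 0) (hs : s + s ^ q + B u u = 0) :
    Adm B v u s := ⟨hv, flip_zero hS hvu, hvu, hs⟩

namespace Rep

include R

lemma ext' {a b : G} (h : ∀ x, R.ac a x = R.ac b x) : a = b :=
  R.inj (LinearEquiv.ext h)

lemma ac_mul (a b : G) (x : V) : R.ac (a * b) x = R.ac a (R.ac b x) := by
  rw [map_mul]
  rfl

lemma ac_one (x : V) : R.ac 1 x = x := by
  rw [map_one]
  rfl

lemma ac_inv_ac (a : G) (x : V) : R.ac a⁻¹ (R.ac a x) = x := by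
  rw [← ac_mul, inv_mul_cancel, ac_one]

lemma ac_ac_inv (a : G) (x : V) : R.ac a (R.ac a⁻¹ x) = x := by
  rw [← ac_mul, mul_inv_cancel, ac_one]

lemma ac_pow (a : G) (k : ℕ) (x : V) : R.ac (a ^ k) x = ((R.ac a : V →ₗ[F] V) ^ k) x := by
  induction k generalizing x with
  | zero => simp
  | succ k ih =>
    rw [pow_succ, ac_mul, ih, pow_succ, Module.End.mul_apply]
    rfl

lemma iso_inv (a : G) (x y : V) : B x (R.ac a y) = B (R.ac a⁻¹ x) y := by
  rw [← R.iso a (R.ac a⁻¹ x) y, ac_ac_inv]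

lemma ac_ne_zero (a : G) {x : V} (h : x ≠ 0) : R.ac a x ≠ 0 := by
  intro h0
  apply h
  have := congrArg (R.ac a⁻¹) h0
  rwa [ac_inv_ac, map_zero] at this

lemma nontrivial_V : Nontrivial V := Module.nontrivial_of_finrank_pos (R := F) (by have := R.dim; omega)

lemma exists_ne_form {x : V} (hx : x ≠ 0) : ∃ y, B x y ≠ 0 := by
  by_contra h
  push Not at h
  exact hx (R.N.1 x h)

/-- Existence of group elements. -/
lemma exists_of_linear (g : V →ₗ[F] V) (hiso : ∀ x y, B (g x) (g y) = B x y) (hdet : LinearMap.det g = 1) :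
    ∃ A, ∀ x, R.ac A x = g x := by
  let t : V ≃ₗ[F] V := g.equivOfDetNeZero (by rw [hdet]; exact one_ne_zero)
  have ht : ∀ x, t x = g x := fun x => rfl
  obtain ⟨A, hA⟩ := R.surj t (fun x y => by rw [ht, ht, hiso]) (by
    apply Units.ext
    rw [LinearEquiv.coe_det, Units.val_one]
    have : (t : V →ₗ[F] V) = g := LinearMap.ext ht
    rw [this, hdet])
  exact ⟨A, fun x => by rw [hA, ht]⟩

lemma exists_he {v u : V} {s : F} (h : Adm B v u s) : ∃ A, ∀ x, R.ac A x = he B v u s x := by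
  obtain ⟨A, hA⟩ := R.surj (heE h.vv h.uv h.vu s) (he_pres h.vv R.S h.uv h.vu h.tr) (he_det h.vv h.uv h.vu s)
  exact ⟨A, fun x => by rw [hA]; rfl⟩

open scoped _root_.Classical in
/-- The Heisenberg element. -/
noncomputable def E (v u : V) (s : F) : G :=
  if h : Adm B v u s then Classical.choose (R.exists_he h) else 1

lemma E_ac {v u : V} {s : F} (h : Adm B v u s) (x : V) : R.ac (R.E v u s) x = he B v u s x := by
  rw [E, dif_pos h]
  exact Classical.choose_spec (R.exists_he h) x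

/-- The transvection element. -/
noncomputable def T (v : V) (c : F) : G := R.E v 0 c

omit R in
lemma adm_zero {v : V} {c : F} (hv : B v v = 0) (hc : c + c ^ q = 0) : Adm B v 0 c :=
  ⟨hv, by simp, by simp, by simpa using hc⟩

lemma T_ac {v : V} {c : F} (hv : B v v = 0) (hc : c + c ^ q = 0) (x : V) : R.ac (R.T v c) x = tv B v c x := by
  rw [T, E_ac R (adm_zero hv hc), he_zero]

lemma adm_add {v u u' : V} {s s' : F} (h : Adm B v u s) (h' : Adm B v u' s') :
    Adm B v (u + u') (s + s' - B u u') := by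
  have hS := R.S
  refine ⟨h.vv, ?_, ?_, ?_⟩
  · rw [add_l, h.uv, h'.uv, add_zero]
  · rw [add_r, h.vu, h'.vu, add_zero]
  · have e1 := flip_eq hS u u'
    have e2 := h.tr
    have e3 := h'.tr
    have e4 : (s + s' - B u u') ^ q = s ^ q + s' ^ q - B u' u := by
      rw [conjQ_sub hF, e1]
      congr 1
      exact map_add (conjQ hF) s s'
    rw [e4]
    simp only [add_l, add_r]
    linear_combination e2 + e3

lemma E_mul {v u u' : V} {s s' : F} (h : Adm B v u s) (h' : Adm B v u' s') :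
    R.E v u s * R.E v u' s' = R.E v (u + u') (s + s' - B u u') := by
  have hadm := adm_add R h h'
  apply R.ext'
  intro x
  rw [ac_mul, E_ac R h', E_ac R h, E_ac R hadm, he_he h.vv h.uv h.vu h'.uv h'.vu]

lemma adm_conj (g : G) {v u : V} {s : F} (h : Adm B v u s) : Adm B (R.ac g v) (R.ac g u) s :=
  ⟨by rw [R.iso, h.vv], by rw [R.iso, h.uv], by rw [R.iso, h.vu], by rw [R.iso]; exact h.tr⟩

lemma conj_E (g : G) {v u : V} {s : F} (h : Adm B v u s) :
    g * R.E v u s * g⁻¹ = R.E (R.ac g v) (R.ac g u) s := by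
  apply R.ext'
  intro x
  rw [ac_mul, ac_mul, E_ac R h, E_ac R (adm_conj R g h), map_inv]
  exact he_conj (R.iso g) v u s x

lemma conj_T (g : G) {v : V} {c : F} (hv : B v v = 0) (hc : c + c ^ q = 0) :
    g * R.T v c * g⁻¹ = R.T (R.ac g v) c := by
  rw [T, T, conj_E R g (adm_zero hv hc), map_zero]

lemma T_add {v : V} {c d : F} (hv : B v v = 0) (hc : c + c ^ q = 0) (hd : d + d ^ q = 0) :
    R.T v c * R.T v d = R.T v (c + d) := by
  have h := E_mul R (adm_zero (q := q) hv hc) (adm_zero hv hd)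
  rw [T, T, h]
  simp [T]

lemma T_zero {v : V} (hv : B v v = 0) : R.T v 0 = 1 := by
  have hq := one_lt_q hF
  apply R.ext'
  intro x
  rw [T_ac R hv (by simp [zero_pow (show q ≠ 0 by omega)]), UT.tv_zero, ac_one]

/-- The centre consists of scalars. -/
lemma central_scalar {z : G} (hz : z ∈ Subgroup.center G) : ∃ l : F, ∀ x, R.ac z x = l • x := by
  have hd := R.dim
  refine scalar_of_fix R.S R.N (by omega) (R.ac z : V →ₗ[F] V) ?_
  intro c hc0 hcc
  obtain ⟨ε, hε0, hε⟩ := exists_eps (hF := hF)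
  have h1 : z * R.T c ε * z⁻¹ = R.T c ε := by
    have := (Subgroup.mem_center_iff.mp hz) (R.T c ε)
    rw [← this]
    group
  rw [conj_T R z hcc hε] at h1
  have h2 : ∀ x, tv B c ε x = (1 : F) • tv B (R.ac z c) ε x := by
    intro x
    rw [one_smul, ← T_ac R hcc hε, ← h1, T_ac R (by rw [R.iso, hcc]) hε]
  obtain ⟨-, -, μ, hμ⟩ := tv_scalar R.S R.N hc0 hcc (by rw [R.iso, hcc]) hε0 h2
  exact ⟨μ, hμ⟩

lemma scalar_central {z : G} {l : F} (h : ∀ x, R.ac z x = l • x) : z ∈ Subgroup.center G := by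
  rw [Subgroup.mem_center_iff]
  intro g
  apply R.ext'
  intro x
  rw [ac_mul, ac_mul, h, h, map_smul]

/-- The class in the central quotient. -/
abbrev pk (s : G) : G ⧸ Subgroup.center G := QuotientGroup.mk s

omit R in
lemma pk_mul (a b : G) : pk (a * b) = pk a * pk b := rfl

omit R in
lemma pk_inv (a : G) : pk a⁻¹ = (pk a)⁻¹ := rfl

omit R in
lemma pk_one : pk (1 : G) = 1 := rfl

omit R in
lemma pk_surj : Function.Surjective (QuotientGroup.mk' (Subgroup.center G)) := QuotientGroup.mk'_surjective _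

omit R in
lemma exists_pk (x : G ⧸ Subgroup.center G) : ∃ s : G, pk s = x := QuotientGroup.mk_surjective x

lemma pk_eq_iff {a b : G} : pk a = pk b ↔ ∃ l : F, ∀ x, R.ac b x = l • R.ac a x := by
  rw [pk, pk, QuotientGroup.eq]
  constructor
  · intro h
    obtain ⟨l, hl⟩ := central_scalar R h
    refine ⟨l, fun x => ?_⟩
    have h1 := hl x
    rw [ac_mul] at h1
    have h2 := congrArg (R.ac a) h1
    rw [ac_ac_inv, map_smul] at h2
    exact h2
  · rintro ⟨l, hl⟩
    apply scalar_central R (l := l)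
    intro x
    rw [ac_mul, hl, map_smul, ac_inv_ac]


/-! ### Classes of transvections -/

lemma pk_T_eq {a b : V} {c d : F} (ha : a ≠ 0) (haa : B a a = 0) (hbb : B b b = 0) (hc : c ≠ 0) (hc' : c + c ^ q = 0)
    (hd' : d + d ^ q = 0) (h : pk (R.T a c) = pk (R.T b d)) : d ≠ 0 ∧ ∃ μ : F, b = μ • a := by
  obtain ⟨l, hl⟩ := (pk_eq_iff R).mp h.symm
  have h2 : ∀ x, tv B a c x = l • tv B b d x := by
    intro x
    have := hl x
    rwa [T_ac R haa hc', T_ac R hbb hd'] at this
  obtain ⟨-, h3, h4⟩ := tv_scalar R.S R.N ha haa hbb hc h2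
  exact ⟨h3, h4⟩

lemma T_smul {u : V} {a c : F} (huu : B u u = 0) (hc : c + c ^ q = 0) :
    R.T (a • u) c = R.T u (c * a ^ q * a) := by
  have hS := R.S
  have h1 : B (a • u) (a • u) = 0 := by simp [smul_l, smul_r, huu]
  have h2 : (c * a ^ q * a) + (c * a ^ q * a) ^ q = 0 := by
    have : (c * a ^ q * a) ^ q = c ^ q * a ^ q * a := by
      rw [mul_pow, mul_pow, pow_q_pow_q hF]
      ring
    rw [this]
    linear_combination (a ^ q * a) * hc
  apply R.ext'
  intro x
  rw [T_ac R h1 hc, T_ac R huu h2, tv_smul_v]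

omit R in
lemma F0_mul_norm (hF : Fintype.card F = q ^ 2) {c a : F} (hc : c + c ^ q = 0) : (c * a ^ q * a) + (c * a ^ q * a) ^ q = 0 := by
  have : (c * a ^ q * a) ^ q = c ^ q * a ^ q * a := by
    rw [mul_pow, mul_pow, pow_q_pow_q hF]
    ring
  rw [this]
  linear_combination (a ^ q * a) * hc

/-- The image of the root group. -/
def Rb (R : Rep B G) (u : V) : Set (G ⧸ Subgroup.center G) := {x | ∃ c : F, c + c ^ q = 0 ∧ x = pk (R.T u c)}

lemma conj_Rb (g : G) {u : V} (huu : B u u = 0) :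
    (fun x => pk g * x * (pk g)⁻¹) '' R.Rb u = R.Rb (R.ac g u) := by
  ext x
  constructor
  · rintro ⟨_, ⟨c, hc, rfl⟩, rfl⟩
    refine ⟨c, hc, ?_⟩
    rw [← conj_T R g huu hc]
    rfl
  · rintro ⟨c, hc, rfl⟩
    refine ⟨_, ⟨c, hc, rfl⟩, ?_⟩
    rw [← conj_T R g huu hc]
    rfl

lemma Rb_smul {u : V} {a : F} (ha : a ≠ 0) (huu : B u u = 0) : R.Rb (a • u) = R.Rb u := by
  ext x
  constructor
  · rintro ⟨c, hc, rfl⟩
    exact ⟨_, F0_mul_norm hF hc, by rw [T_smul R huu hc]⟩
  · rintro ⟨c, hc, rfl⟩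
    have ha' : a ^ q ≠ 0 := pow_ne_zero _ ha
    have hq : (a ^ q * a) ^ q = a ^ q * a := by
      rw [mul_pow, pow_q_pow_q hF]
      ring
    refine ⟨c * (a ^ q * a)⁻¹, ?_, ?_⟩
    · rw [mul_pow, inv_pow, hq]
      linear_combination (a ^ q * a)⁻¹ * hc
    · rw [T_smul R huu (by
        rw [mul_pow, inv_pow, hq]
        linear_combination (a ^ q * a)⁻¹ * hc)]
      congr 2
      field_simp

/-! ### The radical of the stabiliser of an isotropic vector -/

/-- The radical `Q_u`. -/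
def Qu (R : Rep B G) (u : V) : Subgroup G where
  carrier := {x | R.ac x u = u ∧ ∀ w, B u w = 0 → ∃ a : F, R.ac x w = w + a • u}
  mul_mem' := by
    rintro x y ⟨hx1, hx2⟩ ⟨hy1, hy2⟩
    refine ⟨by rw [ac_mul, hy1, hx1], fun w hw => ?_⟩
    obtain ⟨a, ha⟩ := hy2 w hw
    obtain ⟨b, hb⟩ := hx2 w hw
    refine ⟨b + a, ?_⟩
    rw [ac_mul, ha, map_add, hb, map_smul, hx1, add_smul, add_assoc]
  one_mem' := ⟨ac_one R u, fun w _ => ⟨0, by rw [ac_one]; simp⟩⟩
  inv_mem' := by
    rintro x ⟨hx1, hx2⟩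
    have h1 : R.ac x⁻¹ u = u := by
      conv_lhs => rw [← hx1]
      rw [ac_inv_ac]
    refine ⟨h1, fun w hw => ?_⟩
    obtain ⟨a, ha⟩ := hx2 w hw
    refine ⟨-a, ?_⟩
    have h2 := congrArg (R.ac x⁻¹) ha
    rw [ac_inv_ac, map_add, map_smul, h1] at h2
    rw [neg_smul]
    nth_rw 2 [h2]
    abel

lemma mem_Qu {u : V} {x : G} : x ∈ R.Qu u ↔ R.ac x u = u ∧ ∀ w, B u w = 0 → ∃ a : F, R.ac x w = w + a • u := Iff.rfl

lemma E_mem_Qu {u w : V} {s : F} (h : Adm B u w s) : R.E u w s ∈ R.Qu u := by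
  refine ⟨?_, fun z hz => ⟨- B w z, ?_⟩⟩
  · rw [E_ac R h, he_apply, h.vv, h.uv]
    simp
  · rw [E_ac R h, he_apply, hz]
    simp only [zero_smul, add_zero, mul_zero, neg_smul]
    abel

lemma T_mem_Qu {u : V} {c : F} (huu : B u u = 0) (hc : c + c ^ q = 0) : R.T u c ∈ R.Qu u :=
  E_mem_Qu R (adm_zero huu hc)

/-- Conjugation by an element with `g u ∈ F u` normalises `Q_u`. -/
lemma conj_mem_Qu {g x : G} {u : V} {a : F} (ha : a ≠ 0) (hg : R.ac g u = a • u) (hx : x ∈ R.Qu u) :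
    g * x * g⁻¹ ∈ R.Qu u := by
  obtain ⟨h1, h2⟩ := hx
  have hi : R.ac g⁻¹ u = a⁻¹ • u := by
    have h0 := ac_inv_ac R g u
    rw [hg, map_smul] at h0
    rw [eq_inv_smul_iff₀ ha]
    exact h0
  refine ⟨?_, fun w hw => ?_⟩
  · rw [ac_mul, ac_mul, hi, map_smul, h1, ← hi, ac_ac_inv]
  · have hw' : B u (R.ac g⁻¹ w) = 0 := by
      have h0 := R.iso g⁻¹ u w
      rw [hi, smul_l, hw] at h0
      exact (mul_eq_zero.mp h0).resolve_left (pow_ne_zero _ (inv_ne_zero ha))
    obtain ⟨b, hb⟩ := h2 _ hw'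
    refine ⟨b * a, ?_⟩
    rw [ac_mul, ac_mul, hb, map_add, ac_ac_inv, map_smul, hg, smul_smul]


/-! ### The `p`-group property -/

variable {p : ℕ} [hp : Fact p.Prime] [CharP F p]

omit R in
lemma eq_one_of_pow_pow {a : F} {k : ℕ} (h : a ^ (p ^ k) = 1) : a = 1 := by
  have h1 : (a - 1) ^ (p ^ k) = 0 := by
    rw [sub_pow_char_pow, h, one_pow, sub_self]
  exact sub_eq_zero.mp (pow_eq_zero_iff (by have := hp.out.pos; positivity) |>.mp h1)

/-- A unipotent element of class at most three has `p`-power order. -/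
lemma pow_eq_one_of_unip {x : G} (hx : ∀ v, ((R.ac x : V →ₗ[F] V) - 1) (((R.ac x : V →ₗ[F] V) - 1) (((R.ac x : V →ₗ[F] V) - 1) v)) = 0) :
    x ^ (p ^ 2) = 1 := by
  have _ := nontrivial_V R
  have hch : CharP (Module.End F V) p := charP_of_injective_algebraMap (algebraMap F (Module.End F V)).injective p
  set X : Module.End F V := (R.ac x : V →ₗ[F] V) with hX
  have h3 : (X - 1) ^ 3 = 0 := by
    ext v
    simp only [pow_succ, pow_zero, one_mul, Module.End.mul_apply]
    exact hx v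
  have hp2 : 3 ≤ p ^ 2 := by
    have := hp.out.two_le
    nlinarith
  have h4 : X ^ (p ^ 2) - 1 = 0 := by
    have h5 : (X - 1) ^ (p ^ 2) = X ^ (p ^ 2) - 1 ^ (p ^ 2) :=
      sub_pow_char_pow_of_commute p 2 (Commute.one_right X)
    rw [one_pow] at h5
    rw [← h5, ← Nat.sub_add_cancel hp2, pow_add, h3, mul_zero]
  apply R.ext'
  intro y
  rw [ac_pow, ac_one, ← hX, sub_eq_zero.mp h4]
  rfl

/-- `Q_u` is a `p`-group. -/
lemma isP_Qu {u : V} : IsPGroup p (R.Qu u) := by
  intro x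
  refine ⟨2, ?_⟩
  apply Subtype.ext
  obtain ⟨h1, h2⟩ := x.2
  have hN : ∀ v, B u (R.ac x.1 v - v) = 0 := by
    intro v
    rw [sub_r, ← R.iso x.1 u v, h1, sub_self]
  change x.1 ^ p ^ 2 = 1
  apply pow_eq_one_of_unip R
  intro v
  simp only [LinearMap.sub_apply, LinearEquiv.coe_coe, Module.End.one_apply]
  obtain ⟨a, ha⟩ := h2 _ (hN v)
  rw [ha]
  have : R.ac x.1 v - v + a • u - (R.ac x.1 v - v) = a • u := by abel
  rw [this, map_smul, h1, sub_self]

/-! ### Structure of `Q_u` -/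

/-- Moving a partner by a Heisenberg map. -/
lemma exists_he_to {e f f₂ : V} (h : HP B e f) (h1 : B e f₂ = 1) (h2 : B f₂ f₂ = 0) :
    ∃ (w : V) (s : F), Adm B e w s ∧ B f w = 0 ∧ he B e w s f = f₂ := by
  have hS := R.S
  set z := f₂ - f with hz
  have hez : B e z = 0 := by rw [hz, sub_r, h1, h.ef, sub_self]
  set s := B f z with hs
  set w := z - s • e with hw
  have hfw : B f w = 0 := by rw [hw, sub_r, smul_r, h.fe, ← hs]; ring
  have hew : B e w = 0 := by rw [hw, sub_r, smul_r, h.ee, hez]; ring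
  have hwe := flip_zero hS hew
  have hwf := flip_zero hS hfw
  have e1 : f₂ = f + w + s • e := by rw [hw, hz]; abel
  have htr : s + s ^ q + B w w = 0 := by
    rw [e1] at h2
    simp only [add_l, add_r, smul_l, smul_r, h.ee, h.ef, h.ff, h.fe, hew, hwe, hfw, hwf] at h2
    linear_combination h2
  refine ⟨w, s, ⟨h.ee, hwe, hew, htr⟩, hfw, ?_⟩
  rw [he_apply, h.ef, hwf, e1]
  simp

/-- Elements of `Q_u` are Heisenberg elements. -/
lemma Qu_struct {e f : V} (h : HP B e f) {x : G} (hx : x ∈ R.Qu e) :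
    ∃ (w : V) (s : F), Adm B e w s ∧ B f w = 0 ∧ x = R.E e w s := by
  have hS := R.S
  obtain ⟨h1, h2⟩ := hx
  have h3 : B e (R.ac x f) = 1 := by
    have := R.iso x e f
    rwa [h1, h.ef] at this
  have h4 : B (R.ac x f) (R.ac x f) = 0 := by rw [R.iso, h.ff]
  obtain ⟨w, s, ha, hfw, hwf⟩ := exists_he_to R h h3 h4
  refine ⟨w, s, ha, hfw, ?_⟩
  have hwf' := flip_zero hS hfw
  apply R.ext'
  intro y
  rw [E_ac R ha]
  have hy0 : B e (y - B e y • f) = 0 := by
    rw [sub_r, smul_r, h.ef]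
    ring
  obtain ⟨b, hb⟩ := h2 _ hy0
  have e1 : y = (y - B e y • f) + B e y • f := by abel
  have hfx : R.ac x f = f + B e f • w - B w f • e + (s * B e f) • e := by
    rw [← hwf, he_apply]
  rw [h.ef, hwf'] at hfx
  simp only [one_smul, zero_smul, sub_zero, mul_one] at hfx
  -- the coefficient `b`
  have hb' : b + B w (y - B e y • f) = 0 := by
    have h5 := R.iso x f (y - B e y • f)
    rw [hb, hfx] at h5
    simp only [add_l, add_r, smul_l, smul_r, h.ee, h.ef, h.fe, hy0, ha.uv, ha.vu] at h5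
    linear_combination h5
  have e2 : R.ac x y = R.ac x (y - B e y • f) + B e y • R.ac x f := by
    nth_rw 1 [e1]
    rw [map_add, map_smul]
  rw [e2, hb, hfx, he_apply]
  have e3 : B w y = B w (y - B e y • f) := by
    rw [sub_r, smul_r, hwf']
    ring
  rw [e3]
  have e4 : b = - B w (y - B e y • f) := by linear_combination hb'
  rw [e4]
  simp only [smul_add, smul_smul, neg_smul]
  have e5 : B e y * s = s * B e y := by ring
  rw [e5]
  nth_rw 5 [e1]
  abel

/-- An element fixing `u` and commuting with all of `Q_u` is a transvection. -/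
lemma T_of_comm {u : V} (hu0 : u ≠ 0) (huu : B u u = 0) {x : G} (h1 : R.ac x u = u)
    (hc : ∀ y ∈ R.Qu u, x * y = y * x) : ∃ c : F, c + c ^ q = 0 ∧ x = R.T u c := by
  have hS := R.S
  have hq := one_lt_q hF
  obtain ⟨f, hf⟩ := exists_HP hS R.N hu0 huu
  -- `x` lies in `Q_u`
  have hcj : ∀ y ∈ R.Qu u, x * y * x⁻¹ = y := fun y hy => by rw [hc y hy]; group
  have hQ : x ∈ R.Qu u := by
    refine ⟨h1, fun w hw => ?_⟩
    obtain ⟨s, hs⟩ := exists_trace_eq (hF := hF) (ν := - B w w) (by rw [conjQ_neg hF, flip_eq hS])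
    have ha : Adm B u w s := Adm.mk' hS huu hw (by rw [hs]; ring)
    have h2 := hcj _ (E_mem_Qu R ha)
    rw [conj_E R x ha, h1] at h2
    have ha' := adm_conj R x ha
    rw [h1] at ha'
    have h3 : he B u (R.ac x w) s f = he B u w s f := by
      rw [← E_ac R ha', h2, E_ac R ha]
    rw [he_apply, he_apply, hf.ef] at h3
    simp only [one_smul, mul_one] at h3
    refine ⟨B (R.ac x w) f - B w f, ?_⟩
    rw [sub_smul]
    have e := sub_eq_zero.mpr h3
    have e2 : R.ac x w - (w + B (R.ac x w) f • u - B w f • u) = 0 := by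
      rw [← e]
      abel
    rw [sub_eq_zero, add_sub_assoc] at e2
    exact e2
  obtain ⟨w₀, a, ha, hfw, rfl⟩ := Qu_struct R hf hQ
  have key : ∀ w, B u w = 0 → B f w = 0 → ∀ c : F, c * B w₀ w = c ^ q * B w w₀ := by
    intro w hw hfw2 c
    have hcw : B u (c • w) = 0 := by rw [smul_r, hw, mul_zero]
    have hfcw : B f (c • w) = 0 := by rw [smul_r, hfw2, mul_zero]
    obtain ⟨s, hs⟩ := exists_trace_eq (hF := hF) (ν := - B (c • w) (c • w)) (by rw [conjQ_neg hF, flip_eq hS])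
    have ha2 : Adm B u (c • w) s := Adm.mk' hS huu hcw (by rw [hs]; ring)
    have h3 := hc _ (E_mem_Qu R ha2)
    rw [E_mul R ha ha2, E_mul R ha2 ha] at h3
    have h4 := congrArg (fun g => R.ac g f) h3
    beta_reduce at h4
    rw [E_ac R (adm_add R ha ha2), E_ac R (adm_add R ha2 ha), he_apply, he_apply, hf.ef] at h4
    simp only [one_smul, mul_one, add_l, smul_l, flip_zero hS hfw, flip_zero hS hfw2, mul_zero, add_zero, zero_smul, sub_zero] at h4
    rw [add_comm (c • w) w₀] at h4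
    have h5 := add_left_cancel h4
    have h6 := smul_left_injective F hu0 h5
    simp only [smul_r, smul_l] at h6
    linear_combination -h6
  have hzero : w₀ = 0 := by
    apply R.N.1
    intro y
    have hpr : (prW hf w₀ : V) = w₀ := congrArg Subtype.val (prW_W hf ⟨w₀, mem_WW.mpr ⟨ha.vu, hfw⟩⟩)
    have hd := form_decomp hf hS w₀ y
    rw [hpr, ha.vu, hfw, zero_pow (by omega), zero_mul, zero_mul, zero_add, zero_add] at hd
    rw [hd]
    have hw := mem_WW.mp (prW hf y).2
    have k1 := key _ hw.1 hw.2 1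
    rw [one_mul, one_pow, one_mul] at k1
    by_contra hne
    apply conjQ_ne_id hF
    apply RingHom.ext
    intro c
    have k2 := key _ hw.1 hw.2 c
    rw [← k1] at k2
    exact (mul_right_cancel₀ hne k2).symm
  subst hzero
  refine ⟨a, ?_, rfl⟩
  simpa using ha.tr

end Rep

end Cfsg.Agent.Lib.AutPSU
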