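/-
Automorphisms of `PSU`: centres of Sylow subgroups are root groups; normalising an automorphism on a hyperbolic pair.
-/
import Mathlib
import Cfsg.Agent.Lib.AutPSU.Rep

set_option autoImplicit false
set_option linter.unusedSectionVars false
set_option linter.unusedVariables false
set_option linter.unusedSimpArgs false

namespace Cfsg.Agent.Lib.AutPSU

open Module Cfsg.Agent.Lib.Classical Cfsg.Agent.Lib.Classical.UT

/-- The central elements of a subgroup. -/
def CZ {X : Type*} [Group X] (H : Subgroup X) : Set X := {x | x ∈ H ∧ ∀ y ∈ H, x * y = y * x}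

lemma CZ_map {X : Type*} [Group X] (φ : X ≃* X) (H : Subgroup X) : CZ (H.map φ.toMonoidHom) = φ '' CZ H := by
  ext x
  constructor
  · rintro ⟨⟨y, hy, rfl⟩, h⟩
    refine ⟨y, ⟨hy, fun z hz => ?_⟩, rfl⟩
    apply φ.injective
    have := h (φ z) ⟨z, hz, rfl⟩
    simpa using this
  · rintro ⟨y, ⟨hy, h⟩, rfl⟩
    refine ⟨⟨y, hy, rfl⟩, ?_⟩
    rintro _ ⟨z, hz, rfl⟩
    have := h z hz
    simp only [MulEquiv.coe_toMonoidHom]
    rw [← map_mul, this, map_mul]

variable {F : Type*} [Field F] [Fintype F] {q : ℕ} {hF : Fintype.card F = q ^ 2}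
variable {V : Type*} [AddCommGroup V] [Module F V] [FiniteDimensional F V]
variable {B : V →ₛₗ[conjQ hF] V →ₗ[F] F} {G : Type*} [Group G] (R : Rep B G)

namespace Rep

include R

/-- The representation in endomorphisms. -/
noncomputable def acE : G →* Module.End F V where
  toFun g := (R.ac g : V →ₗ[F] V)
  map_one' := by
    ext x
    simp [ac_one R]
  map_mul' a b := by
    ext x
    simp [ac_mul R, Module.End.mul_apply]

lemma acE_apply (g : G) (x : V) : R.acE g x = R.ac g x := rfl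

variable {p : ℕ} [hp : Fact p.Prime] [CharP F p]

/-- A `p`-subgroup fixes a non-zero isotropic vector. -/
lemma fixed_of_p (T : Subgroup G) (hT : IsPGroup p T) : ∃ u : V, u ≠ 0 ∧ B u u = 0 ∧ ∀ t ∈ T, R.ac t u = u := by
  have hd := R.dim
  obtain ⟨u, h1, h2, h3⟩ := fixed_iso R.S R.N (by omega) hT (R.acE.comp T.subtype) (fun t x y => R.iso t.1 x y)
  exact ⟨u, h1, h2, fun t ht => h3 ⟨t, ht⟩⟩

variable [Finite G]

/-- The centre of a Sylow `p`-subgroup of the central quotient is a root group. -/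
theorem syl_center (Tb : Sylow p (G ⧸ Subgroup.center G)) :
    ∃ u : V, u ≠ 0 ∧ B u u = 0 ∧ CZ (Tb : Subgroup (G ⧸ Subgroup.center G)) = R.Rb u := by
  obtain ⟨T, hT⟩ := Sylow.mapSurjective_surjective (pk_surj (G := G)) p Tb
  have hTb : (Tb : Subgroup (G ⧸ Subgroup.center G)) = (T : Subgroup G).map (QuotientGroup.mk' _) := by
    rw [← hT]
    rfl
  obtain ⟨u, hu0, huu, hfix⟩ := fixed_of_p R (T : Subgroup G) T.isPGroup'
  have hnorm : (T : Subgroup G) ≤ Subgroup.normalizer (R.Qu u : Set G) := by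
    intro t ht
    rw [Subgroup.mem_normalizer_iff]
    intro x
    have h1 : R.ac t u = (1 : F) • u := by rw [hfix t ht, one_smul]
    have h2 : R.ac t⁻¹ u = (1 : F) • u := by
      rw [one_smul]
      conv_lhs => rw [← hfix t ht]
      rw [ac_inv_ac]
    constructor
    · exact conj_mem_Qu R one_ne_zero h1
    · intro h
      have := conj_mem_Qu R one_ne_zero h2 h
      have e : t⁻¹ * (t * x * t⁻¹) * t⁻¹⁻¹ = x := by group
      rwa [e] at this
  have hsup := (T.isPGroup').to_sup_of_normal_right' (isP_Qu R (u := u)) hnorm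
  have hQ : R.Qu u ≤ T := sup_eq_left.mp (T.is_maximal' hsup le_sup_left)
  refine ⟨u, hu0, huu, ?_⟩
  ext x
  constructor
  · rintro ⟨hx, hc⟩
    rw [hTb] at hx
    obtain ⟨t, ht, rfl⟩ := hx
    have hcomm : ∀ y ∈ R.Qu u, t * y = y * t := by
      intro y hy
      have h1 : QuotientGroup.mk' (Subgroup.center G) y ∈ (Tb : Subgroup (G ⧸ Subgroup.center G)) := by
        rw [hTb]
        exact ⟨y, hQ hy, rfl⟩
      have h2 := hc _ h1
      have h3 : pk (t * y) = pk (y * t) := h2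
      obtain ⟨l, hl⟩ := (pk_eq_iff R).mp h3
      have hyu : R.ac y u = u := hy.1
      have h4 := hl u
      rw [ac_mul, ac_mul, hfix t ht, hyu, hfix t ht] at h4
      have hl1 : l = 1 := by
        have h5 : (l - 1) • u = 0 := by
          rw [sub_smul, one_smul, ← h4, sub_self]
        exact sub_eq_zero.mp ((smul_eq_zero.mp h5).resolve_right hu0)
      subst hl1
      apply R.ext'
      intro z
      have := hl z
      rw [one_smul] at this
      exact this.symm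
    obtain ⟨c, hc', rfl⟩ := T_of_comm R hu0 huu (hfix t ht) hcomm
    exact ⟨c, hc', rfl⟩
  · rintro ⟨c, hc, rfl⟩
    refine ⟨?_, ?_⟩
    · rw [hTb]
      exact ⟨_, hQ (T_mem_Qu R huu hc), rfl⟩
    · intro y hy
      rw [hTb] at hy
      obtain ⟨t, ht, rfl⟩ := hy
      have h1 := conj_T R t huu hc
      rw [hfix t ht] at h1
      have h2 : R.T u c * t = t * R.T u c := by
        nth_rw 1 [← h1]
        group
      exact congrArg pk h2

/-- Every root group is the centre of a Sylow `p`-subgroup. -/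
theorem exists_syl {u : V} (hu0 : u ≠ 0) (huu : B u u = 0) :
    ∃ Tb : Sylow p (G ⧸ Subgroup.center G), CZ (Tb : Subgroup (G ⧸ Subgroup.center G)) = R.Rb u := by
  obtain ⟨T₀⟩ := (inferInstance : Nonempty (Sylow p (G ⧸ Subgroup.center G)))
  obtain ⟨u₁, h1, h2, h3⟩ := syl_center R T₀
  obtain ⟨t, ht, htu⟩ := orb_iso R.S R.N R.dim h1 h2 hu0 huu
  obtain ⟨g, hg⟩ := R.surj t (TG_iso R.S ht) (TG_det ht)
  let φ : (G ⧸ Subgroup.center G) ≃* (G ⧸ Subgroup.center G) := MulAut.conj (pk g)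
  have hφ : Function.Surjective φ.toMonoidHom := φ.surjective
  refine ⟨T₀.mapSurjective hφ, ?_⟩
  change CZ ((T₀ : Subgroup _).map φ.toMonoidHom) = _
  rw [CZ_map, h3]
  have h4 := conj_Rb R g h2
  rw [hg, htu] at h4
  rw [← h4]
  rfl

/-- Automorphisms permute the root groups. -/
theorem pres (p : ℕ) [hp : Fact p.Prime] [CharP F p] (β : (G ⧸ Subgroup.center G) ≃* (G ⧸ Subgroup.center G)) {u : V} (hu0 : u ≠ 0) (huu : B u u = 0) :
    ∃ u' : V, u' ≠ 0 ∧ B u' u' = 0 ∧ β '' R.Rb u = R.Rb u' := by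
  obtain ⟨Tb, hTb⟩ := exists_syl (p := p) R hu0 huu
  have hφ : Function.Surjective β.toMonoidHom := β.surjective
  obtain ⟨u', h1, h2, h3⟩ := syl_center R (Tb.mapSurjective hφ)
  refine ⟨u', h1, h2, ?_⟩
  change CZ ((Tb : Subgroup _).map β.toMonoidHom) = _ at h3
  rw [CZ_map, hTb] at h3
  exact h3

omit [Finite G] hp [CharP F p]

/-! ### Commuting root groups -/

lemma comm_of_perp {a b : V} {c d : F} (haa : B a a = 0) (hbb : B b b = 0) (hab : B a b = 0) (hc : c + c ^ q = 0)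
    (hd : d + d ^ q = 0) : R.T a c * R.T b d = R.T b d * R.T a c := by
  have h1 := conj_T R (R.T a c) hbb hd
  have h2 : R.ac (R.T a c) b = b := by
    rw [T_ac R haa hc, tv_apply, hab]
    simp
  rw [h2] at h1
  nth_rw 2 [← h1]
  group

lemma not_comm {e f : V} (h : HP B e f) {c d : F} (hc0 : c ≠ 0) (hd0 : d ≠ 0) (hc : c + c ^ q = 0) (hd : d + d ^ q = 0) :
    ¬ (pk (R.T e c) * pk (R.T f d) = pk (R.T f d) * pk (R.T e c)) := by
  intro hcomm
  have h1 := conj_T R (R.T e c) h.ff hd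
  have h2 : R.ac (R.T e c) f = f + c • e := by
    rw [T_ac R h.ee hc, tv_apply, h.ef, mul_one]
  rw [h2] at h1
  have h3 : pk (R.T f d) = pk (R.T (f + c • e) d) := by
    rw [← h1, pk_mul, pk_mul, pk_inv, hcomm]
    group
  have hbb : B (f + c • e) (f + c • e) = 0 := by
    rw [← h2, R.iso, h.ff]
  obtain ⟨-, μ, hμ⟩ := pk_T_eq R h.f_ne h.ff hbb hd0 hd hd h3
  have h4 := congrArg (B f) hμ
  rw [add_r, smul_r, smul_r, h.ff, h.fe] at h4
  apply hc0
  linear_combination h4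

/-- Transitivity on hyperbolic pairs. -/
lemma hp_trans {e₁ f₁ e₂ f₂ : V} (h₁ : HP B e₁ f₁) (h₂ : HP B e₂ f₂) : ∃ g : G, R.ac g e₁ = e₂ ∧ R.ac g f₁ = f₂ := by
  obtain ⟨t, ht, hte⟩ := orb_iso R.S R.N R.dim h₁.e_ne h₁.ee h₂.e_ne h₂.ee
  obtain ⟨g, hg⟩ := R.surj t (TG_iso R.S ht) (TG_det ht)
  have hge : R.ac g e₁ = e₂ := by rw [hg, hte]
  set f₃ := R.ac g f₁ with hf₃
  have h₃ : HP B e₂ f₃ := by
    refine ⟨h₂.ee, ?_, ?_, ?_⟩
    · rw [hf₃, R.iso, h₁.ff]
    · rw [hf₃, ← hge, R.iso, h₁.ef]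
    · rw [hf₃, ← hge, R.iso, h₁.fe]
  obtain ⟨w, s, ha, -, hw⟩ := exists_he_to R h₃ h₂.ef h₂.ff
  refine ⟨R.E e₂ w s * g, ?_, ?_⟩
  · rw [ac_mul, hge, E_ac R ha, he_apply, h₂.ee, ha.uv]
    simp
  · rw [ac_mul, ← hf₃, E_ac R ha, hw]

/-- `g ∘ β`. -/
noncomputable def nrm (β : (G ⧸ Subgroup.center G) ≃* (G ⧸ Subgroup.center G)) (g : G) :
    (G ⧸ Subgroup.center G) ≃* (G ⧸ Subgroup.center G) :=
  β.trans (MulAut.conj (pk g))

omit R in
lemma nrm_apply (β : (G ⧸ Subgroup.center G) ≃* (G ⧸ Subgroup.center G)) (g : G) (x : G ⧸ Subgroup.center G) :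
    nrm β g x = pk g * β x * (pk g)⁻¹ := rfl

variable [Finite G]

/-- Normalising an automorphism on a hyperbolic pair. -/
theorem exists_good (p : ℕ) [hp : Fact p.Prime] [CharP F p] (β : (G ⧸ Subgroup.center G) ≃* (G ⧸ Subgroup.center G)) {e f : V} (h : HP B e f) :
    ∃ g : G, nrm β g '' R.Rb e = R.Rb e ∧ nrm β g '' R.Rb f = R.Rb f := by
  have hS := R.S
  obtain ⟨e', he0, hee, hbe⟩ := pres R p β h.e_ne h.ee
  obtain ⟨f', hf0, hff, hbf⟩ := pres R p β h.f_ne h.ff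
  obtain ⟨ε, hε0, hε⟩ := exists_eps (hF := hF)
  have hne : B e' f' ≠ 0 := by
    intro h0
    have h1 : β (pk (R.T e ε)) ∈ R.Rb e' := by
      rw [← hbe]
      exact ⟨_, ⟨ε, hε, rfl⟩, rfl⟩
    have h2 : β (pk (R.T f ε)) ∈ R.Rb f' := by
      rw [← hbf]
      exact ⟨_, ⟨ε, hε, rfl⟩, rfl⟩
    obtain ⟨c, hc, hc'⟩ := h1
    obtain ⟨d, hd, hd'⟩ := h2
    apply not_comm R h hε0 hε0 hε hε
    apply β.injective
    rw [map_mul, map_mul, hc', hd']
    exact congrArg pk (comm_of_perp R hee hff h0 hc hd)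
  set a := (B e' f')⁻¹ with ha
  have ha0 : a ≠ 0 := inv_ne_zero hne
  have hp' : HP B e' (a • f') := by
    have h1 : B e' (a • f') = 1 := by
      rw [smul_r, ha, inv_mul_cancel₀ hne]
    refine ⟨hee, ?_, h1, flip_one hS h1⟩
    simp only [smul_l, smul_r, hff, mul_zero]
  obtain ⟨g, hg1, hg2⟩ := hp_trans R hp' h
  refine ⟨g, ?_, ?_⟩
  · have : nrm β g '' R.Rb e = (fun x => pk g * x * (pk g)⁻¹) '' (β '' R.Rb e) := by
      rw [Set.image_image]
      rfl
    rw [this, hbe, conj_Rb R g hee, hg1]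
  · have : nrm β g '' R.Rb f = (fun x => pk g * x * (pk g)⁻¹) '' (β '' R.Rb f) := by
      rw [Set.image_image]
      rfl
    rw [this, hbf, ← Rb_smul R ha0 hff, conj_Rb R g hp'.ff, hg2]

end Rep

end Cfsg.Agent.Lib.AutPSU
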