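/-
Automorphisms of `PSU`: the parabolic subgroup, its unipotent radical, the induced map on the Levi module.
-/
import Mathlib
import Cfsg.Agent.Lib.AutPSU.Syl

set_option autoImplicit false
set_option linter.unusedSectionVars false
set_option linter.unusedVariables false
set_option linter.unusedSimpArgs false

namespace Cfsg.Agent.Lib.AutPSU

open Module Cfsg.Agent.Lib.Classical Cfsg.Agent.Lib.Classical.UT

variable {F : Type*} [Field F] [Fintype F] {q : ℕ} {hF : Fintype.card F = q ^ 2}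
variable {V : Type*} [AddCommGroup V] [Module F V] [FiniteDimensional F V]
variable {B : V →ₛₗ[conjQ hF] V →ₗ[F] F} {G : Type*} [Group G] (R : Rep B G)

/-- A submodule containing enough isotropic vectors is everything. -/
lemma sub_top {U : Type*} [AddCommGroup U] [Module F U] [FiniteDimensional F U] {C : U →ₛₗ[conjQ hF] U →ₗ[F] F}
    (hS : C.IsSymm) (hB : C.Nondegenerate) (hU : 2 ≤ finrank F U) (𝓦 : Submodule F U)
    (hst : ∀ v ∈ 𝓦, C v v = 0 → ∀ a, C a a = 0 → C a v ≠ 0 → a ∈ 𝓦)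
    {v₀ : U} (h1 : v₀ ∈ 𝓦) (h2 : v₀ ≠ 0) (h3 : C v₀ v₀ = 0) (x : U) : x ∈ 𝓦 := by
  have hiso : ∀ a, C a a = 0 → a ∈ 𝓦 := by
    intro a ha
    by_cases h4 : C a v₀ = 0
    · by_cases hind : a ∈ Submodule.span F {v₀}
      · obtain ⟨μ, rfl⟩ := Submodule.mem_span_singleton.mp hind
        exact 𝓦.smul_mem _ h1
      · obtain ⟨z, hz0, hz, h5, h6⟩ := exists_common hS hB h2 h3 ha (flip_zero hS h4) hind
        have hzm : z ∈ 𝓦 := hst v₀ h1 h3 z hz (fun h0 => h5 (flip_zero hS h0))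
        exact hst z hzm hz a ha (fun h0 => h6 (flip_zero hS h0))
    · exact hst v₀ h1 h3 a ha h4
  have h5 : Submodule.span F {c : U | C c c = 0} ≤ 𝓦 := Submodule.span_le.mpr hiso
  exact h5 (iso_span hS hB hU x)

lemma he_smul_gen (hF' : Fintype.card F = q ^ 2) (l : F) (v u : V) (s : F) (x : V) :
    he B (l • v) u s x = he B v (l ^ q • u) (s * l ^ q * l) x := by
  simp only [he_apply, smul_l, smul_r, pow_q_pow_q hF]
  (module)

namespace Rep

include R

/-- The stabiliser of a line. -/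
def Pe (R : Rep B G) (e : V) : Subgroup G where
  carrier := {x | ∃ a : F, R.ac x e = a • e}
  mul_mem' := by
    rintro x y ⟨a, ha⟩ ⟨b, hb⟩
    exact ⟨b * a, by rw [ac_mul, hb, map_smul, ha, smul_smul]⟩
  one_mem' := ⟨1, by rw [ac_one, one_smul]⟩
  inv_mem' := by
    rintro x ⟨a, ha⟩
    by_cases he : e = 0
    · exact ⟨0, by simp [he]⟩
    have ha0 : a ≠ 0 := by
      rintro rfl
      rw [zero_smul] at ha
      exact ac_ne_zero R x he ha
    refine ⟨a⁻¹, ?_⟩
    have h0 := ac_inv_ac R x e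
    rw [ha, map_smul] at h0
    rw [eq_inv_smul_iff₀ ha0]
    exact h0

lemma mem_Pe {e : V} {x : G} : x ∈ R.Pe e ↔ ∃ a : F, R.ac x e = a • e := Iff.rfl

lemma coef_ne {x : G} {e : V} {a : F} (he : e ≠ 0) (h : R.ac x e = a • e) : a ≠ 0 := by
  rintro rfl
  rw [zero_smul] at h
  exact ac_ne_zero R x he h

omit R in
lemma image_symm_eq {X : Type*} [Group X] (β : X ≃* X) {S : Set X} (h : β '' S = S) : β.symm '' S = S := by
  nth_rw 1 [← h]
  rw [Set.image_image]
  simp

/-- Elements normalising a root group map to such elements. -/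
lemma Pe_pres (β : (G ⧸ Subgroup.center G) ≃* (G ⧸ Subgroup.center G)) {e : V} (he : e ≠ 0) (hee : B e e = 0)
    (hβ : β '' R.Rb e = R.Rb e) {A A' : G} (hA : A ∈ R.Pe e) (hA' : β (pk A) = pk A') : A' ∈ R.Pe e := by
  obtain ⟨a, ha⟩ := hA
  have ha0 := coef_ne R he ha
  obtain ⟨ε, hε0, hε⟩ := exists_eps (hF := hF)
  have h1 : pk (R.T e ε) ∈ β '' R.Rb e := by
    rw [hβ]
    exact ⟨ε, hε, rfl⟩
  obtain ⟨_, ⟨c₁, hc₁, rfl⟩, h2⟩ := h1
  have h3 : A * R.T e c₁ * A⁻¹ = R.T e (c₁ * a ^ q * a) := by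
    rw [conj_T R A hee hc₁, ha, T_smul R hee hc₁]
  have h4 : β (pk (R.T e (c₁ * a ^ q * a))) ∈ R.Rb e := by
    rw [← hβ]
    exact ⟨_, ⟨_, F0_mul_norm hF hc₁, rfl⟩, rfl⟩
  obtain ⟨c₂, hc₂, h5⟩ := h4
  have h6 : pk (R.T (R.ac A' e) ε) = pk (R.T e c₂) := by
    rw [← h5, ← h3, ← conj_T R A' hee hε, pk_mul, pk_mul, pk_inv, pk_mul, pk_mul, pk_inv, map_mul, map_mul, map_inv, hA', h2]
  obtain ⟨-, μ, hμ⟩ := pk_T_eq R (ac_ne_zero R A' he) (by rw [R.iso, hee]) hee hε0 hε hc₂ h6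
  have hμ0 : μ ≠ 0 := by
    rintro rfl
    rw [zero_smul] at hμ
    exact he hμ
  refine ⟨μ⁻¹, ?_⟩
  rw [eq_inv_smul_iff₀ hμ0]
  exact hμ.symm

variable {p : ℕ} [hp : Fact p.Prime] [CharP F p]

/-- A `p`-element acting on a line acts trivially. -/
lemma fix_of_p_elt {t : G} {k : ℕ} (ht : t ^ (p ^ k) = 1) {e : V} (he : e ≠ 0) {b : F} (hb : R.ac t e = b • e) :
    R.ac t e = e := by
  have h1 : ∀ m : ℕ, R.ac (t ^ m) e = b ^ m • e := by
    intro m
    induction m with
    | zero => simp [ac_one R]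
    | succ m ih =>
      rw [pow_succ, ac_mul, hb, map_smul, ih, smul_smul, pow_succ']
  have h2 := h1 (p ^ k)
  rw [ht, ac_one] at h2
  have h3 : (b ^ p ^ k - 1) • e = 0 := by
    rw [sub_smul, one_smul, ← h2, sub_self]
  have h4 := sub_eq_zero.mp ((smul_eq_zero.mp h3).resolve_right he)
  rw [hb, eq_one_of_pow_pow h4, one_smul]

variable [Finite G]

/-- Normal `p`-subgroups of the parabolic lie in the image of the radical. -/
theorem Op_le {e f : V} (h : HP B e f) (Rbar : Subgroup (G ⧸ Subgroup.center G)) (hRp : IsPGroup p Rbar)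
    (hle : ∀ x ∈ Rbar, ∃ y ∈ R.Pe e, pk y = x)
    (hn : ∀ y ∈ R.Pe e, ∀ x ∈ Rbar, pk y * x * (pk y)⁻¹ ∈ Rbar) :
    ∀ x ∈ Rbar, ∃ y ∈ R.Qu e, pk y = x := by
  have hS := R.S
  have hq := one_lt_q hF
  obtain ⟨Tb, hTb⟩ := hRp.exists_le_sylow
  obtain ⟨TG', hT'⟩ := Sylow.mapSurjective_surjective (pk_surj (G := G)) p Tb
  have hTb' : (Tb : Subgroup (G ⧸ Subgroup.center G)) = (TG' : Subgroup G).map (QuotientGroup.mk' _) := by
    rw [← hT']
    rfl
  let T : Subgroup G := (TG' : Subgroup G) ⊓ Rbar.comap (QuotientGroup.mk' (Subgroup.center G))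
  have hTp : IsPGroup p T := TG'.isPGroup'.to_le inf_le_left
  have hTsurj : ∀ x ∈ Rbar, ∃ t ∈ T, pk t = x := by
    intro x hx
    have h1 := hTb hx
    rw [hTb'] at h1
    obtain ⟨t, ht, rfl⟩ := h1
    exact ⟨t, ⟨ht, hx⟩, rfl⟩
  have hTR : ∀ t ∈ T, pk t ∈ Rbar := fun t ht => ht.2
  -- `T` fixes `e`
  have hTe : ∀ t ∈ T, R.ac t e = e := by
    intro t ht
    obtain ⟨y, ⟨a, ha⟩, hy⟩ := hle _ (hTR t ht)
    obtain ⟨l, hl⟩ := (pk_eq_iff R).mp hy
    obtain ⟨k, hk⟩ := hTp ⟨t, ht⟩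
    have hk' : t ^ p ^ k = 1 := congrArg Subtype.val hk
    refine fix_of_p_elt (p := p) R hk' h.e_ne (b := l * a) ?_
    rw [hl, ha, smul_smul]
  -- `T` is normalised by the parabolic
  have hTn : ∀ y ∈ R.Pe e, ∀ t ∈ T, y * t * y⁻¹ ∈ T := by
    intro y hy t ht
    obtain ⟨t', ht', h1⟩ := hTsurj _ (hn y hy _ (hTR t ht))
    have h2 : pk t' = pk (y * t * y⁻¹) := h1
    obtain ⟨l, hl⟩ := (pk_eq_iff R).mp h2
    obtain ⟨a, ha⟩ := hy
    have ha0 := coef_ne R h.e_ne ha
    have hfix : R.ac (y * t * y⁻¹) e = e := by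
      have hi : R.ac y⁻¹ e = a⁻¹ • e := by
        have h0 := ac_inv_ac R y e
        rw [ha, map_smul] at h0
        rw [eq_inv_smul_iff₀ ha0]
        exact h0
      rw [ac_mul, ac_mul, hi, map_smul, hTe t ht, ← hi, ac_ac_inv]
    have h3 := hl e
    rw [hfix, hTe t' ht'] at h3
    have hl1 : l = 1 := by
      have h5 : (l - 1) • e = 0 := by
        rw [sub_smul, one_smul, ← h3, sub_self]
      exact sub_eq_zero.mp ((smul_eq_zero.mp h5).resolve_right h.e_ne)
    subst hl1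
    have h4 : y * t * y⁻¹ = t' := by
      apply R.ext'
      intro z
      rw [hl z, one_smul]
    rw [h4]
    exact ht'
  -- the action on the complement
  have hTw : ∀ (t : G), t ∈ T → ∀ w : WW B e f, R.ac t w = (prW h (R.ac t w) : V) + B f (R.ac t w) • e := by
    intro t ht w
    have h1 := decomp h (R.ac t w)
    have h2 : B e (R.ac t w) = 0 := by
      have := R.iso t e w
      rw [hTe t ht, (mem_WW.mp w.2).1] at this
      exact this
    rw [h2, zero_smul, add_zero] at h1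
    rw [add_comm]
    exact h1
  let ρ : T →* Module.End F (WW B e f) :=
    { toFun := fun t => (prW h) ∘ₗ (R.ac t.1 : V →ₗ[F] V) ∘ₗ (WW B e f).subtype
      map_one' := by
        ext w
        simp [ac_one R, prW_W h]
      map_mul' := fun a b => by
        apply LinearMap.ext
        intro w
        apply Subtype.ext
        simp only [LinearMap.comp_apply, Module.End.mul_apply, Submodule.subtype_apply, LinearEquiv.coe_coe]
        change (prW h (R.ac (a.1 * b.1) w) : V) = (prW h (R.ac a.1 (prW h (R.ac b.1 w) : V)) : V)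
        have h2 := hTw b.1 b.2 w
        have h3 : R.ac (a.1 * b.1) w = R.ac a.1 (prW h (R.ac b.1 w) : V) + B f (R.ac b.1 w) • e := by
          rw [ac_mul]
          nth_rw 1 [h2]
          rw [map_add, map_smul, hTe a.1 a.2]
        rw [h3, map_add, map_smul, prW_e h, smul_zero, add_zero] }
  have hρ : ∀ (t : T) (w : WW B e f), ρ t w = prW h (R.ac t.1 w) := fun t w => rfl
  have hw1 : 1 ≤ finrank F (WW B e f) := by
    have h1 := finrank_WW h
    have h2 := R.dim
    omega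
  have hBW := BW_symm hS e f
  have hBN := BW_nondeg h hS R.N
  -- the fixed vectors
  have hall : ∀ (t : T) (w : WW B e f), ρ t w = w := by
    by_cases hw2 : 2 ≤ finrank F (WW B e f)
    · have hiso : ∀ (t : T) (x y : WW B e f), BW B e f (ρ t x) (ρ t y) = BW B e f x y := by
        intro t x y
        rw [BW_apply, BW_apply, hρ, hρ]
        have h1 := hTw t.1 t.2 x
        have h2 := hTw t.1 t.2 y
        have h3 : B (R.ac t.1 x) (R.ac t.1 y) = B x y := R.iso _ _ _
        rw [h1, h2] at h3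
        have h4 := mem_WW.mp (prW h (R.ac t.1 x)).2
        have h5 := mem_WW.mp (prW h (R.ac t.1 y)).2
        have h6 := flip_zero hS h4.1
        simp only [add_l, add_r, smul_l, smul_r, h6, h5.1, h.ee, mul_zero, add_zero] at h3
        exact h3
      obtain ⟨w₀, hw₀, hw₀', hfix⟩ := fixed_iso hBW hBN hw2 hTp ρ hiso
      let 𝓦 : Submodule F (WW B e f) :=
        { carrier := {w | ∀ t, ρ t w = w}
          add_mem' := fun {a b} ha hb t => by rw [map_add, ha t, hb t]
          zero_mem' := fun t => map_zero _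
          smul_mem' := fun c x hx t => by rw [map_smul, hx t] }
      have hst : ∀ v ∈ 𝓦, BW B e f v v = 0 → ∀ a, BW B e f a a = 0 → BW B e f a v ≠ 0 → a ∈ 𝓦 := by
        intro v hv hvv a haa hav
        obtain ⟨ε, hε0, hε⟩ := exists_eps (hF := hF)
        have ha1 := mem_WW.mp a.2
        have ha2 := flip_zero hS ha1.1
        have ha3 := flip_zero hS ha1.2
        have haa' : B (a : V) a = 0 := haa
        set y := R.T (a : V) ε with hy
        have hye : R.ac y e = e := by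
          rw [hy, T_ac R haa' hε, tv_apply, ha2]
          simp
        have hyf : R.ac y f = f := by
          rw [hy, T_ac R haa' hε, tv_apply, ha3]
          simp
        have hyi : R.ac y⁻¹ e = e := by
          nth_rw 1 [← hye]
          rw [ac_inv_ac]
        have hyv : R.ac y v = v + (ε * B (a : V) v) • (a : V) := by
          rw [hy, T_ac R haa' hε, tv_apply]
        have hyW : ((v + (ε * B (a : V) v) • a : WW B e f) : V) = R.ac y v := by
          rw [hyv]
          rfl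
        -- the vector `y v` is fixed
        have hmem : (v + (ε * B (a : V) v) • a : WW B e f) ∈ 𝓦 := by
          intro t
          apply Subtype.ext
          rw [hρ, hyW]
          set t' := y⁻¹ * t.1 * y⁻¹⁻¹ with ht'
          have ht'T : t' ∈ T := hTn y⁻¹ ⟨1, by rw [hyi, one_smul]⟩ t.1 t.2
          have e1 : R.ac t.1 (R.ac y v) = R.ac y (R.ac t' v) := by
            rw [ht', inv_inv, ac_mul, ac_mul, ac_ac_inv]
          have e2 := hTw t' ht'T v
          have e3 : (prW h (R.ac t' v) : V) = v := by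
            have := hv ⟨t', ht'T⟩
            rw [hρ] at this
            exact congrArg Subtype.val this
          rw [e3] at e2
          rw [e1, e2, map_add, map_smul, hye, map_add, map_smul, prW_e h, smul_zero, add_zero, ← hyW, prW_W h]
        have h1 : (ε * B (a : V) v) • a ∈ 𝓦 := by
          have := 𝓦.sub_mem hmem hv
          simpa using this
        have h2 : ε * B (a : V) v ≠ 0 := mul_ne_zero hε0 hav
        have h3 := 𝓦.smul_mem (ε * B (a : V) v)⁻¹ h1
        rwa [smul_smul, inv_mul_cancel₀ h2, one_smul] at h3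
      intro t w
      exact sub_top hBW hBN hw2 𝓦 hst (v₀ := w₀) hfix hw₀ hw₀' w t
    · have hw3 : finrank F (WW B e f) = 1 := by omega
      obtain ⟨w₀, hw₀, hfix⟩ := exists_fixed_vec hTp hw1 ρ
      have hspan := (finrank_eq_one_iff_of_nonzero' w₀ hw₀).mp hw3
      intro t w
      obtain ⟨c, rfl⟩ := hspan w
      rw [map_smul, hfix t]
  intro x hx
  obtain ⟨t, ht, rfl⟩ := hTsurj x hx
  refine ⟨t, ⟨hTe t ht, fun z hz => ?_⟩, rfl⟩
  have h1 := hall ⟨t, ht⟩ (prW h z)
  rw [hρ] at h1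
  have h2 := hTw t ht (prW h z)
  have e3 := congrArg Subtype.val h1
  simp only at e3
  rw [e3] at h2
  have h3 := decomp h z
  rw [hz, zero_smul, add_zero] at h3
  refine ⟨B f (R.ac t (prW h z)), ?_⟩
  calc R.ac t z = R.ac t (B f z • e + (prW h z : V)) := by rw [← h3]
    _ = B f z • e + ((prW h z : V) + B f (R.ac t (prW h z)) • e) := by
        rw [map_add, map_smul, hTe t ht]
        exact congrArg _ h2
    _ = (B f z • e + (prW h z : V)) + B f (R.ac t (prW h z)) • e := by abel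
    _ = z + B f (R.ac t (prW h z)) • e := by rw [← h3]

/-- The image of the radical is preserved. -/
theorem Q_pres (p : ℕ) [hp : Fact p.Prime] [CharP F p] (β : (G ⧸ Subgroup.center G) ≃* (G ⧸ Subgroup.center G)) {e f : V} (h : HP B e f)
    (hβ : β '' R.Rb e = R.Rb e) {A : G} (hA : A ∈ R.Qu e) : ∃ A' ∈ R.Qu e, β (pk A) = pk A' := by
  let Nb : Subgroup (G ⧸ Subgroup.center G) := (R.Qu e).map (QuotientGroup.mk' _)
  let Rbar : Subgroup (G ⧸ Subgroup.center G) := Nb.map β.toMonoidHom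
  have hRp : IsPGroup p Rbar := ((isP_Qu R (u := e)).map _).map _
  have hβ' := image_symm_eq β hβ
  have hle : ∀ x ∈ Rbar, ∃ y ∈ R.Pe e, pk y = x := by
    rintro _ ⟨_, ⟨a, ha, rfl⟩, rfl⟩
    obtain ⟨y, hy⟩ := exists_pk (β (pk a))
    exact ⟨y, Pe_pres R β h.e_ne h.ee hβ ⟨1, by rw [ha.1, one_smul]⟩ hy.symm, hy⟩
  have hn : ∀ y ∈ R.Pe e, ∀ x ∈ Rbar, pk y * x * (pk y)⁻¹ ∈ Rbar := by
    rintro y hy _ ⟨_, ⟨a, ha, rfl⟩, rfl⟩
    obtain ⟨y₁, hy₁⟩ := exists_pk (β.symm (pk y))
    have h1 : y₁ ∈ R.Pe e := Pe_pres R β.symm h.e_ne h.ee hβ' hy hy₁.symm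
    obtain ⟨a₁, ha₁⟩ := h1
    have h2 : y₁ * a * y₁⁻¹ ∈ R.Qu e := conj_mem_Qu R (coef_ne R h.e_ne ha₁) ha₁ ha
    refine ⟨_, ⟨_, h2, rfl⟩, ?_⟩
    have e1 : pk y = β (pk y₁) := by
      rw [hy₁]
      simp
    change β (pk (y₁ * a * y₁⁻¹)) = pk y * β (pk a) * (pk y)⁻¹
    rw [e1, pk_mul, pk_mul, pk_inv, map_mul, map_mul, map_inv]
  obtain ⟨A', hA', e⟩ := Op_le (p := p) R h Rbar hRp hle hn (β (pk A)) ⟨_, ⟨A, hA, rfl⟩, rfl⟩
  exact ⟨A', hA', e.symm⟩

end Rep

end Cfsg.Agent.Lib.AutPSU
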