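/-
Automorphisms of `PSU`: the additive map induced on the Levi module.
-/
import Mathlib
import Cfsg.Agent.Lib.AutPSU.Levi

set_option autoImplicit false
set_option linter.unusedSectionVars false
set_option linter.unusedVariables false
set_option linter.unusedSimpArgs false

namespace Cfsg.Agent.Lib.AutPSU

open Module Cfsg.Agent.Lib.Classical Cfsg.Agent.Lib.Classical.UT

variable {F : Type*} [Field F] [Fintype F] {q : ℕ} {hF : Fintype.card F = q ^ 2}
variable {V : Type*} [AddCommGroup V] [Module F V] [FiniteDimensional F V]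
variable {B : V →ₛₗ[conjQ hF] V →ₗ[F] F} {G : Type*} [Group G] (R : Rep B G)

namespace Rep

include R

variable {e f : V} (h : HP B e f)

include h

lemma adm_W (w : WW B e f) {s : F} (hs : s + s ^ q + B w w = 0) : Adm B e w s :=
  ⟨h.ee, flip_zero R.S (mem_WW.mp w.2).1, (mem_WW.mp w.2).1, hs⟩

lemma exists_s (w : WW B e f) : ∃ s : F, s + s ^ q + B w w = 0 := by
  obtain ⟨s, hs⟩ := exists_trace_eq (hF := hF) (ν := - B w w) (by rw [conjQ_neg hF, flip_eq R.S])
  exact ⟨s, by rw [hs]; ring⟩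

lemma he_f (w : WW B e f) (s : F) : he B e w s f = f + w + s • e := by
  rw [he_apply, h.ef, flip_zero R.S (mem_WW.mp w.2).2]
  simp

/-- Parameters of a Heisenberg element are unique modulo scalars. -/
lemma E_pk_inj {w w' : WW B e f} {s s' : F} (hs : s + s ^ q + B w w = 0) (hs' : s' + s' ^ q + B w' w' = 0)
    (hpk : pk (R.E e w s) = pk (R.E e w' s')) : w = w' ∧ s = s' := by
  obtain ⟨l, hl⟩ := (pk_eq_iff R).mp hpk
  have ha := adm_W R h w hs
  have ha' := adm_W R h w' hs'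
  have h1 := hl e
  rw [E_ac R ha, E_ac R ha', he_apply, he_apply, h.ee, ha.uv, ha'.uv] at h1
  simp only [zero_smul, add_zero, sub_zero, mul_zero] at h1
  have hl1 : l = 1 := by
    have h5 : (l - 1) • e = 0 := by
      rw [sub_smul, one_smul, ← h1, sub_self]
    exact sub_eq_zero.mp ((smul_eq_zero.mp h5).resolve_right h.e_ne)
  subst hl1
  have h2 := hl f
  rw [one_smul, E_ac R ha, E_ac R ha', he_f R h, he_f R h] at h2
  have h3 := congrArg (B f) h2
  simp only [add_r, smul_r, h.ff, h.fe, (mem_WW.mp w.2).2, (mem_WW.mp w'.2).2] at h3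
  have hs2 : s = s' := by linear_combination -h3
  subst hs2
  refine ⟨?_, rfl⟩
  apply Subtype.ext
  have h4 : f + (w' : V) = f + (w : V) := add_right_cancel h2
  exact (add_left_cancel h4).symm

omit h in
lemma T_mul_E {u : V} {c r : F} (ha : Adm B e u r) (hc : c + c ^ q = 0) : R.T e c * R.E e u r = R.E e u (c + r) := by
  have h1 := E_mul R (adm_zero (q := q) ha.vv hc) ha
  rw [T, h1, zero_add]
  simp

/-- The map on the complement induced by a Levi element. -/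
noncomputable def rh (R : Rep B G) (h : HP B e f) (A : G) (l : F) (w : WW B e f) : WW B e f :=
  prW h (l ^ q • R.ac A w)

lemma rh_mem {A : G} {l m : F} (hAe : R.ac A e = l • e) (hAf : R.ac A f = m • f) (w : WW B e f) :
    l ^ q • R.ac A w ∈ WW B e f := by
  have hw := mem_WW.mp w.2
  have hm : m ≠ 0 := coef_ne R h.f_ne hAf
  rw [mem_WW, smul_r, smul_r]
  constructor
  · have h1 := R.iso A e w
    rw [hAe, smul_l, hw.1] at h1
    exact h1
  · have h1 := R.iso A f w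
    rw [hAf, smul_l, hw.2] at h1
    rw [(mul_eq_zero.mp h1).resolve_left (pow_ne_zero _ hm), mul_zero]

lemma rh_coe {A : G} {l m : F} (hAe : R.ac A e = l • e) (hAf : R.ac A f = m • f) (w : WW B e f) :
    (rh R h A l w : V) = l ^ q • R.ac A w := by
  have := prW_W h ⟨_, rh_mem R h hAe hAf w⟩
  exact congrArg Subtype.val this

lemma conj_Ee {A : G} {l m : F} (hAe : R.ac A e = l • e) (hAf : R.ac A f = m • f) (w : WW B e f) {s : F}
    (hs : s + s ^ q + B w w = 0) :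
    (s * l ^ q * l) + (s * l ^ q * l) ^ q + B (rh R h A l w : V) (rh R h A l w : V) = 0 ∧
    A * R.E e w s * A⁻¹ = R.E e (rh R h A l w) (s * l ^ q * l) := by
  have hl : l ≠ 0 := coef_ne R h.e_ne hAe
  have ha := adm_W R h w hs
  have htr : (s * l ^ q * l) + (s * l ^ q * l) ^ q + B (rh R h A l w : V) (rh R h A l w : V) = 0 := by
    rw [rh_coe R h hAe hAf, smul_l, smul_r, R.iso]
    have e1 : (s * l ^ q * l) ^ q = s ^ q * l ^ q * l := by
      rw [mul_pow, mul_pow, pow_q_pow_q hF]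
      ring
    rw [e1, pow_q_pow_q hF]
    linear_combination (l ^ q * l) * hs
  refine ⟨htr, ?_⟩
  have ha' := adm_W R h (rh R h A l w) htr
  rw [conj_E R A ha, hAe]
  apply R.ext'
  intro x
  have ha2 := adm_conj R A ha
  rw [hAe] at ha2
  rw [E_ac R ha2, E_ac R ha', he_smul_gen hF, rh_coe R h hAe hAf]

/-- Conjugation relation under an automorphism. -/
lemma conj_rel {β : (G ⧸ Subgroup.center G) ≃* (G ⧸ Subgroup.center G)} {A A' : G} {l m l' m' : F}
    (hAe : R.ac A e = l • e) (hAf : R.ac A f = m • f) (hAe' : R.ac A' e = l' • e) (hAf' : R.ac A' f = m' • f)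
    (hβ : β (pk A) = pk A') {w w' : WW B e f} {s s' : F} (hs : s + s ^ q + B w w = 0) (hs' : s' + s' ^ q + B w' w' = 0)
    (hb : β (pk (R.E e w s)) = pk (R.E e w' s')) :
    β (pk (R.E e (rh R h A l w) (s * l ^ q * l))) = pk (R.E e (rh R h A' l' w') (s' * l' ^ q * l')) := by
  rw [← (conj_Ee R h hAe hAf w hs).2, ← (conj_Ee R h hAe' hAf' w' hs').2, pk_mul, pk_mul, pk_inv, pk_mul, pk_mul, pk_inv,
    map_mul, map_mul, map_inv, hβ, hb]

/-- Data induced by a good automorphism. -/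
structure IsPsi (R : Rep B G) (β : (G ⧸ Subgroup.center G) ≃* (G ⧸ Subgroup.center G)) (h : HP B e f)
    (ψ : WW B e f → WW B e f) (s₀ : F → F) : Prop where
  s0 : ∀ c : F, c + c ^ q = 0 → s₀ c + (s₀ c) ^ q = 0 ∧ β (pk (R.T e c)) = pk (R.T e (s₀ c))
  he : ∀ (w : WW B e f) (s : F), s + s ^ q + B w w = 0 →
    ∃ s' : F, s' + s' ^ q + B (ψ w : V) (ψ w : V) = 0 ∧ β (pk (R.E e w s)) = pk (R.E e (ψ w) s')

/-- Existence of the data. -/
theorem exists_psi (p : ℕ) [hp : Fact p.Prime] [CharP F p] [Finite G]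
    (β : (G ⧸ Subgroup.center G) ≃* (G ⧸ Subgroup.center G)) (hβ : β '' R.Rb e = R.Rb e) :
    ∃ (ψ : WW B e f → WW B e f) (s₀ : F → F), IsPsi R β h ψ s₀ := by
  have h0 : ∀ c : F, ∃ c' : F, c + c ^ q = 0 → c' + c' ^ q = 0 ∧ β (pk (R.T e c)) = pk (R.T e c') := by
    intro c
    by_cases hc : c + c ^ q = 0
    · have h1 : β (pk (R.T e c)) ∈ R.Rb e := by
        rw [← hβ]
        exact ⟨_, ⟨c, hc, rfl⟩, rfl⟩
      obtain ⟨c', hc', e1⟩ := h1
      exact ⟨c', fun _ => ⟨hc', e1⟩⟩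
    · exact ⟨0, fun h' => absurd h' hc⟩
  choose s₀ hs₀ using h0
  have h1 : ∀ w : WW B e f, ∃ w' : WW B e f, ∀ s : F, s + s ^ q + B w w = 0 →
      ∃ s' : F, s' + s' ^ q + B (w' : V) (w' : V) = 0 ∧ β (pk (R.E e w s)) = pk (R.E e w' s') := by
    intro w
    obtain ⟨s₁, hs₁⟩ := exists_s R h w
    have ha₁ := adm_W R h w hs₁
    obtain ⟨A', hA', e1⟩ := Q_pres R p β h hβ (E_mem_Qu R ha₁)
    obtain ⟨w', s', ha', hfw, rfl⟩ := Qu_struct R h hA'
    refine ⟨⟨w', mem_WW.mpr ⟨ha'.vu, hfw⟩⟩, fun s hs => ?_⟩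
    have hc : (s - s₁) + (s - s₁) ^ q = 0 := by
      rw [conjQ_sub hF]
      linear_combination hs - hs₁
    have e2 : R.E e w s = R.T e (s - s₁) * R.E e w s₁ := by
      rw [T_mul_E R ha₁ hc]
      congr 1
      ring
    obtain ⟨hc', e3⟩ := hs₀ _ hc
    refine ⟨s₀ (s - s₁) + s', ?_, ?_⟩
    · have := hc'
      have h5 : (s₀ (s - s₁) + s') ^ q = (s₀ (s - s₁)) ^ q + s' ^ q := map_add (conjQ hF) _ _
      rw [h5]
      have h6 := ha'.tr
      linear_combination hc' + h6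
    · rw [e2, pk_mul, map_mul, e3, e1, ← pk_mul, T_mul_E R ha' hc']
  choose ψ hψ using h1
  exact ⟨ψ, s₀, ⟨hs₀, hψ⟩⟩

variable {β : (G ⧸ Subgroup.center G) ≃* (G ⧸ Subgroup.center G)} {ψ : WW B e f → WW B e f} {s₀ : F → F}
variable (H : IsPsi R β h ψ s₀)

include H

/-- The map is additive. -/
lemma IsPsi.add (x y : WW B e f) : ψ (x + y) = ψ x + ψ y := by
  obtain ⟨s, hs⟩ := exists_s R h x
  obtain ⟨t, ht⟩ := exists_s R h y
  have ha₁ := adm_W R h x hs
  have ha₂ := adm_W R h y ht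
  obtain ⟨s', hs', e1⟩ := H.he x s hs
  obtain ⟨t', ht', e2⟩ := H.he y t ht
  have ha₁' := adm_W R h (ψ x) hs'
  have ha₂' := adm_W R h (ψ y) ht'
  have hr := (adm_add R ha₁ ha₂).tr
  obtain ⟨r', hr', e4⟩ := H.he (x + y) (s + t - B x y) hr
  have hr2 := (adm_add R ha₁' ha₂').tr
  have e5 := E_mul R ha₁ ha₂
  have e6 := E_mul R ha₁' ha₂'
  have e7 : pk (R.E e (ψ (x + y)) r') = pk (R.E e ((ψ x + ψ y : WW B e f) : V) (s' + t' - B (ψ x : V) (ψ y : V))) := by
    rw [← e4]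
    change β (pk (R.E e ((x : V) + y) _)) = pk (R.E e ((ψ x : V) + ψ y) _)
    rw [← e5, ← e6, pk_mul, pk_mul, map_mul, e1, e2]
  exact (E_pk_inj R h hr' hr2 e7).1

/-- The map is bijective. -/
lemma IsPsi.bij (hβ : β '' R.Rb e = R.Rb e) : Function.Bijective ψ := by
  have _ : Finite V := Module.finite_of_finite F
  rw [← Finite.injective_iff_bijective]
  intro x y hxy
  obtain ⟨s, hs⟩ := exists_s R h x
  obtain ⟨t, ht⟩ := exists_s R h y
  obtain ⟨s', hs', e1⟩ := H.he x s hs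
  obtain ⟨t', ht', e2⟩ := H.he y t ht
  rw [← hxy] at ht' e2
  have ha₁' := adm_W R h (ψ x) hs'
  have ha₂' := adm_W R h (ψ x) ht'
  have hc : (s' - t') + (s' - t') ^ q = 0 := by
    rw [conjQ_sub hF]
    linear_combination hs' - ht'
  have h1 : pk (R.T e (s' - t')) ∈ β '' R.Rb e := by
    rw [hβ]
    exact ⟨_, hc, rfl⟩
  obtain ⟨_, ⟨c, hc₁, rfl⟩, e3⟩ := h1
  have e4 : R.E e (ψ x) s' = R.T e (s' - t') * R.E e (ψ x) t' := by
    rw [T_mul_E R ha₂' hc]
    congr 1
    ring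
  have ha₂ := adm_W R h y ht
  have e5 : pk (R.E e x s) = pk (R.E e y (c + t)) := by
    apply β.injective
    rw [← T_mul_E R ha₂ hc₁, pk_mul, map_mul, e1, e2, e3, ← pk_mul, ← e4]
  have hr : (c + t) + (c + t) ^ q + B (y : V) (y : V) = 0 := by
    have h5 : (c + t) ^ q = c ^ q + t ^ q := map_add (conjQ hF) _ _
    rw [h5]
    linear_combination hc₁ + ht
  exact (E_pk_inj R h hs hr e5).1

/-- The commutator relation. -/
lemma IsPsi.comm (x y : WW B e f) :
    B (ψ y : V) (ψ x : V) - B (ψ x : V) (ψ y : V) = s₀ (B (y : V) (x : V) - B (x : V) (y : V)) := by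
  have hS := R.S
  obtain ⟨s, hs⟩ := exists_s R h x
  obtain ⟨t, ht⟩ := exists_s R h y
  have ha₁ := adm_W R h x hs
  have ha₂ := adm_W R h y ht
  obtain ⟨s', hs', e1⟩ := H.he x s hs
  obtain ⟨t', ht', e2⟩ := H.he y t ht
  have ha₁' := adm_W R h (ψ x) hs'
  have ha₂' := adm_W R h (ψ y) ht'
  set c := B (y : V) (x : V) - B (x : V) (y : V) with hc
  have hc1 : c + c ^ q = 0 := by
    rw [hc, conjQ_sub hF, flip_eq hS, flip_eq hS]
    ring
  obtain ⟨hc2, e3⟩ := H.s0 c hc1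
  have e4 : R.E e x s * R.E e y t = R.T e c * (R.E e y t * R.E e x s) := by
    rw [E_mul R ha₁ ha₂, E_mul R ha₂ ha₁, T_mul_E R (adm_add R ha₂ ha₁) hc1, add_comm (x : V) (y : V)]
    congr 1
    rw [hc]
    ring
  have e5 := congrArg (fun g => β (pk g)) e4
  beta_reduce at e5
  rw [pk_mul, pk_mul, pk_mul, map_mul, map_mul, map_mul, e1, e2, e3, ← pk_mul, ← pk_mul, ← pk_mul,
    E_mul R ha₁' ha₂', E_mul R ha₂' ha₁', T_mul_E R (adm_add R ha₂' ha₁') hc2, add_comm (ψ y : V) (ψ x : V)] at e5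
  have hr1 := (adm_add R ha₁' ha₂').tr
  have hr2 : (s₀ c + (t' + s' - B (ψ y : V) (ψ x : V))) + (s₀ c + (t' + s' - B (ψ y : V) (ψ x : V))) ^ q +
      B ((ψ x + ψ y : WW B e f) : V) ((ψ x + ψ y : WW B e f) : V) = 0 := by
    have h1 := (adm_add R ha₂' ha₁').tr
    have h5 : (s₀ c + (t' + s' - B (ψ y : V) (ψ x : V))) ^ q = (s₀ c) ^ q + (t' + s' - B (ψ y : V) (ψ x : V)) ^ q :=
      map_add (conjQ hF) _ _
    rw [h5]
    have h6 : ((ψ x + ψ y : WW B e f) : V) = (ψ y : V) + ψ x := by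
      rw [add_comm]
      rfl
    rw [h6]
    linear_combination h1 + hc2
  have e6 := (E_pk_inj R h (w := ψ x + ψ y) (w' := ψ x + ψ y) hr1 hr2 e5).2
  linear_combination e6

end Rep

end Cfsg.Agent.Lib.AutPSU
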