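/-
Automorphisms of `PSU`: additive maps commuting with the Levi action are scalars.
-/
import Mathlib
import Cfsg.Agent.Lib.AutPSU.Psi

set_option autoImplicit false
set_option linter.unusedSectionVars false
set_option linter.unusedVariables false
set_option linter.unusedSimpArgs false

namespace Cfsg.Agent.Lib.AutPSU

open Module Cfsg.Agent.Lib.Classical Cfsg.Agent.Lib.Classical.UT

variable {F : Type*} [Field F] [Fintype F] {q : ℕ} {hF : Fintype.card F = q ^ 2}
variable {V : Type*} [AddCommGroup V] [Module F V] [FiniteDimensional F V]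
variable {B : V →ₛₗ[conjQ hF] V →ₗ[F] F} {G : Type*} [Group G] (R : Rep B G)

namespace Rep

include R

variable {e f : V} (h : HP B e f)

include h

lemma rh_of {A : G} {l m : F} (hAe : R.ac A e = l • e) (hAf : R.ac A f = m • f) {w w' : WW B e f}
    (hw : l ^ q • R.ac A w = (w' : V)) : rh R h A l w = w' :=
  Subtype.ext (by rw [rh_coe R h hAe hAf, hw])

/-- Levi elements: the scalar torus on the hyperbolic pair. -/
lemma exists_lt {t : F} (ht : t ^ q = t) (ht0 : t ≠ 0) :
    ∃ A : G, R.ac A e = t • e ∧ R.ac A f = t⁻¹ • f ∧ ∀ w : WW B e f, R.ac A w = w := by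
  have hS := R.S
  obtain ⟨A, hA⟩ := R.exists_of_linear (hy B e f t t⁻¹)
    (hy_iso hS h (by rw [ht]; field_simp) (by rw [inv_pow, ht]; field_simp))
    (by rw [hy_det h]; field_simp)
  refine ⟨A, by rw [hA, hy_left h], by rw [hA, hy_right h], fun w => ?_⟩
  have hw := mem_WW.mp w.2
  rw [hA, hy_perp hw.1 hw.2]

/-- Transvections in the complement as Levi elements. -/
lemma T_W (v : WW B e f) {c : F} (hvv : B (v : V) v = 0) (hc : c + c ^ q = 0) :
    R.ac (R.T v c) e = (1 : F) • e ∧ R.ac (R.T v c) f = (1 : F) • f := by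
  have hv := mem_WW.mp v.2
  rw [T_ac R hvv hc, T_ac R hvv hc, tv_apply, tv_apply, flip_zero R.S hv.1, flip_zero R.S hv.2]
  simp

/-- The torus acting on a hyperbolic pair of the complement. -/
lemma exists_D {v v' : WW B e f} (hv : HP B (v : V) v') {l : F} (hl : l ≠ 0) :
    ∃ A : G, R.ac A e = l • e ∧ R.ac A f = (l ^ q)⁻¹ • f ∧ R.ac A v = l⁻¹ • (v : V) := by
  have hS := R.S
  have hlq : l ^ q ≠ 0 := pow_ne_zero _ hl
  have h1 : l ^ q * (l ^ q)⁻¹ = 1 := mul_inv_cancel₀ hlq
  have h2 : ((l ^ q)⁻¹) ^ q * l = 1 := by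
    rw [inv_pow, pow_q_pow_q hF, inv_mul_cancel₀ hl]
  have h3 : (l⁻¹) ^ q * l ^ q = 1 := by
    rw [inv_pow, inv_mul_cancel₀ hlq]
  have h4 : (l ^ q) ^ q * l⁻¹ = 1 := by
    rw [pow_q_pow_q hF, mul_inv_cancel₀ hl]
  obtain ⟨A, hA⟩ := R.exists_of_linear (hy B e f l (l ^ q)⁻¹ ∘ₗ hy B (v : V) v' l⁻¹ (l ^ q))
    (fun x y => by
      rw [LinearMap.comp_apply, LinearMap.comp_apply, hy_iso hS h h1 h2, hy_iso hS hv h3 h4])
    (by
      rw [LinearMap.det_comp, hy_det h, hy_det hv]
      field_simp)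
  have hve := mem_WW.mp v.2
  have hve' := mem_WW.mp v'.2
  refine ⟨A, ?_, ?_, ?_⟩
  · rw [hA, LinearMap.comp_apply, hy_perp (flip_zero hS hve.1) (flip_zero hS hve'.1), hy_left h]
  · rw [hA, LinearMap.comp_apply, hy_perp (flip_zero hS hve.2) (flip_zero hS hve'.2), hy_right h]
  · rw [hA, LinearMap.comp_apply, hy_left hv, map_smul, hy_perp hve.1 hve.2]

/-- The torus acting on an anisotropic vector of the complement. -/
lemma exists_D' {d : WW B e f} (hd : B (d : V) d ≠ 0) {l : F} (hl : l ≠ 0) :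
    ∃ A : G, R.ac A e = l • e ∧ R.ac A f = (l ^ q)⁻¹ • f ∧ R.ac A d = (l ^ q * l⁻¹) • (d : V) := by
  have hS := R.S
  have hlq : l ^ q ≠ 0 := pow_ne_zero _ hl
  have h1 : l ^ q * (l ^ q)⁻¹ = 1 := mul_inv_cancel₀ hlq
  have h2 : ((l ^ q)⁻¹) ^ q * l = 1 := by
    rw [inv_pow, pow_q_pow_q hF, inv_mul_cancel₀ hl]
  have h3 : (l ^ q * l⁻¹) ^ q * (l ^ q * l⁻¹) = 1 := by
    rw [mul_pow, inv_pow, pow_q_pow_q hF]
    field_simp
  obtain ⟨A, hA⟩ := R.exists_of_linear (hy B e f l (l ^ q)⁻¹ ∘ₗ rf B (d : V) (l ^ q * l⁻¹))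
    (fun x y => by
      rw [LinearMap.comp_apply, LinearMap.comp_apply, hy_iso hS h h1 h2, rf_iso hS hd h3])
    (by
      rw [LinearMap.det_comp, hy_det h, rf_det hd]
      field_simp)
  have hve := mem_WW.mp d.2
  refine ⟨A, ?_, ?_, ?_⟩
  · rw [hA, LinearMap.comp_apply, rf_perp (flip_zero hS hve.1), hy_left h]
  · rw [hA, LinearMap.comp_apply, rf_perp (flip_zero hS hve.2), hy_right h]
  · rw [hA, LinearMap.comp_apply, rf_self hd, map_smul, hy_perp hve.1 hve.2]

variable {E : WW B e f → WW B e f} (hadd : ∀ x y, E (x + y) = E x + E y)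
  (hE : ∀ (A : G) (l m : F), R.ac A e = l • e → R.ac A f = m • f → ∀ w, E (rh R h A l w) = rh R h A l (E w))

include hadd

omit R h in
lemma comm_zero : E 0 = 0 := by
  have := hadd 0 0
  rw [add_zero] at this
  exact left_eq_add.mp this

include hE

/-- Additive maps commuting with the Levi action are `F_q`-linear. -/
lemma comm_fq {t : F} (ht : t ^ q = t) (w : WW B e f) : E (t • w) = t • E w := by
  by_cases ht0 : t = 0
  · rw [ht0, zero_smul, zero_smul, comm_zero hadd]
  obtain ⟨A, h1, h2, h3⟩ := exists_lt R h ht ht0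
  have e1 : ∀ w : WW B e f, rh R h A t w = t • w := fun w => rh_of R h h1 h2 (by rw [h3, ht]; rfl)
  rw [← e1, hE A t _ h1 h2, e1]

/-- `F`-linearity follows from commuting with a non-fixed scalar. -/
lemma comm_lin {s : F} (hs : s ^ q ≠ s) (hsE : ∀ w, E (s • w) = s • E w) (a : F) (w : WW B e f) : E (a • w) = a • E w := by
  obtain ⟨α, β, hα, hβ, rfl⟩ := two_gen hF hs a
  rw [add_smul, hadd, comm_fq R h hadd hE hα, mul_smul, comm_fq R h hadd hE hβ, hsE, add_smul, mul_smul]

/-- Behaviour on isotropic vectors in the complement. -/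
lemma iso_eig {v : WW B e f} (hv0 : v ≠ 0) (hvv : B (v : V) v = 0) :
    ∃ y : F, (∀ a : F, E (a • v) = (a * y) • v) ∧ ∀ w : WW B e f, B (v : V) (E w) = y * B (v : V) w := by
  have hS := R.S
  have hq := one_lt_q hF
  have hC := BW_symm hS e f
  have hCN := BW_nondeg h hS R.N
  obtain ⟨ε, hε0, hε⟩ := exists_eps (hF := hF)
  -- the relation from the transvection
  have hstar : ∀ (c : F) (w : WW B e f), c + c ^ q = 0 → E ((c * B (v : V) w) • v) = (c * B (v : V) (E w)) • v := by
    intro c w hc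
    obtain ⟨h1, h2⟩ := T_W R h v hvv hc
    have e1 : ∀ w : WW B e f, rh R h (R.T v c) 1 w = w + (c * B (v : V) w) • v := by
      intro w
      refine rh_of R h h1 h2 ?_
      rw [one_pow, one_smul, T_ac R hvv hc, tv_apply]
      rfl
    have h3 := hE (R.T v c) 1 1 h1 h2 w
    rw [e1, e1, hadd] at h3
    exact add_left_cancel h3
  obtain ⟨v', hv'⟩ := exists_HP hC hCN hv0 hvv
  have hv2 : HP B (v : V) v' := ⟨hv'.ee, hv'.ff, hv'.ef, hv'.fe⟩
  -- `v` goes to a multiple of itself
  have hline : ∀ a : F, ∃ a' : F, E (a • v) = a' • v := by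
    intro a
    have h1 := hstar ε ((a / ε) • v') hε
    have h2 : ε * (a / ε) = a := by field_simp
    have e2 : B (v : V) (((a / ε) • v' : WW B e f) : V) = a / ε := by
      rw [Submodule.coe_smul, smul_r, hv2.ef, mul_one]
    rw [e2, h2] at h1
    exact ⟨_, h1⟩
  obtain ⟨y, hy⟩ : ∃ y : F, E v = y • v := by
    have := hline 1
    rwa [one_smul] at this
  -- the torus
  have hq1 : ¬ (q + 1) ∣ (q - 1) := Nat.not_dvd_of_pos_of_lt (by omega) (by omega)
  obtain ⟨l, hl, hlq⟩ := exists_pow_not_fixed hF hq1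
  have hu : l ^ (q - 1) = l ^ q * l⁻¹ := by
    have : l ^ q = l ^ (q - 1) * l := by
      rw [← pow_succ, Nat.sub_add_cancel (by omega)]
    rw [this]
    field_simp
  rw [hu] at hlq
  obtain ⟨A, h1, h2, h3⟩ := exists_D R h hv2 hl
  have e1 : ∀ a : F, rh R h A l (a • v) = (l ^ q * l⁻¹ * a) • v := by
    intro a
    refine rh_of R h h1 h2 ?_
    rw [Submodule.coe_smul, map_smul, h3, smul_smul, smul_smul, Submodule.coe_smul]
    congr 1
    ring
  have htor : E ((l ^ q * l⁻¹) • v) = ((l ^ q * l⁻¹) * y) • v := by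
    have h4 := hE A l _ h1 h2 (1 • v)
    rw [one_smul] at h4
    have h5 := e1 1
    rw [one_smul, mul_one] at h5
    rw [h5, hy] at h4
    rw [h4, e1, mul_comm]
  have hlin : ∀ a : F, E (a • v) = (a * y) • v := by
    intro a
    obtain ⟨α, β, hα, hβ, rfl⟩ := two_gen hF hlq a
    rw [add_smul, hadd, comm_fq R h hadd hE hα, mul_smul, comm_fq R h hadd hE hβ, htor, hy]
    simp only [smul_smul]
    rw [← add_smul]
    congr 1
    ring
  refine ⟨y, hlin, fun w => ?_⟩
  have h4 := hstar ε w hε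
  rw [hlin] at h4
  have h5 := smul_left_injective F hv0 h4
  have h6 : ε * (B (v : V) w * y) = ε * B (v : V) (E w) := by
    linear_combination h5
  have h7 := mul_left_cancel₀ hε0 h6
  rw [← h7]
  ring

/-- Additive maps commuting with the Levi action are scalars. -/
theorem comm_scalar : ∃ y : F, ∀ w, E w = y • w := by
  have hS := R.S
  have hq := one_lt_q hF
  have hC := BW_symm hS e f
  have hCN := BW_nondeg h hS R.N
  have hfr := finrank_WW h
  have hdim := R.dim
  by_cases hw2 : 2 ≤ finrank F (WW B e f)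
  · obtain ⟨v₀, hv₀, hv₀'⟩ := exists_isotropic hC hCN hw2
    obtain ⟨y₀, hy₀, hy₀'⟩ := iso_eig R h hadd hE hv₀ hv₀'
    let 𝓦 : Submodule F (WW B e f) :=
      { carrier := {v | ∀ w : WW B e f, B (v : V) (E w) = y₀ * B (v : V) w}
        add_mem' := fun {a b} ha hb w => by
          simp only [Submodule.coe_add, add_l, ha w, hb w]
          ring
        zero_mem' := fun w => by simp
        smul_mem' := fun c x hx w => by
          simp only [Submodule.coe_smul, smul_l, hx w]
          ring }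
    have hst : ∀ v ∈ 𝓦, BW B e f v v = 0 → ∀ a, BW B e f a a = 0 → BW B e f a v ≠ 0 → a ∈ 𝓦 := by
      intro v hv hvv a haa hav
      have hv0 : v ≠ 0 := by
        rintro rfl
        exact hav (by simp)
      have ha0 : a ≠ 0 := by
        rintro rfl
        exact hav (by simp)
      obtain ⟨y, hy, hy'⟩ := iso_eig R h hadd hE hv0 hvv
      obtain ⟨y₁, hy₁, hy₁'⟩ := iso_eig R h hadd hE ha0 haa
      -- `y = y₀`
      have h1 : y = y₀ := by
        obtain ⟨w, hw⟩ : ∃ w : WW B e f, B (v : V) w ≠ 0 := by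
          by_contra hcon
          push Not at hcon
          exact hv0 (hCN.1 v hcon)
        have h2 := hv w
        rw [hy'] at h2
        exact mul_right_cancel₀ hw h2
      -- `y₁ = y`
      have h3 : y₁ = y := by
        have h4 := hy₁' v
        have h5 := hy 1
        rw [one_smul, one_mul] at h5
        rw [h5, Submodule.coe_smul, smul_r] at h4
        exact (mul_right_cancel₀ hav h4).symm
      intro w
      rw [hy₁', h3, h1]
    have hall := sub_top hC hCN hw2 𝓦 hst (v₀ := v₀) (fun w => by rw [hy₀']) hv₀ hv₀'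
    refine ⟨y₀, fun w => ?_⟩
    have h1 : E w - y₀ • w = 0 := by
      apply hCN.2
      intro x
      have := hall x w
      rw [BW_apply, Submodule.coe_sub, sub_r, Submodule.coe_smul, smul_r, this, sub_self]
    exact sub_eq_zero.mp h1
  · have hw1 : finrank F (WW B e f) = 1 := by omega
    have hV3 : finrank F V = 3 := by omega
    have hq2 : q ≠ 2 := by
      rcases R.gen with h1 | h1
      · exact absurd hV3 h1
      · exact h1
    have hnt : Nontrivial (WW B e f) := Module.nontrivial_of_finrank_pos (R := F) (by omega)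
    obtain ⟨d, hd⟩ := exists_aniso hC hCN hnt
    have hd0 : d ≠ 0 := by
      rintro rfl
      exact hd (by simp)
    have hspan := (finrank_eq_one_iff_of_nonzero' d hd0).mp hw1
    have hk : ¬ (q + 1) ∣ (2 * q - 1) := by
      intro hdvd
      have h1 : q + 1 ∣ 3 := by
        have h2 : 2 * (q + 1) - (2 * q - 1) = 3 := by omega
        rw [← h2]
        exact Nat.dvd_sub (dvd_mul_left _ _) hdvd
      have := Nat.le_of_dvd (by norm_num) h1
      omega
    obtain ⟨l, hl, hlq⟩ := exists_pow_not_fixed hF hk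
    obtain ⟨A, h1, h2, h3⟩ := exists_D' R h hd hl
    have hu : l ^ (2 * q - 1) = l ^ q * (l ^ q * l⁻¹) := by
      have : l ^ (2 * q - 1) * l = l ^ q * l ^ q := by
        rw [← pow_succ, Nat.sub_add_cancel (by omega), two_mul, pow_add]
      field_simp
      linear_combination this
    rw [hu] at hlq
    have e1 : ∀ w : WW B e f, rh R h A l w = (l ^ q * (l ^ q * l⁻¹)) • w := by
      intro w
      refine rh_of R h h1 h2 ?_
      obtain ⟨c, rfl⟩ := hspan w
      rw [Submodule.coe_smul, map_smul, h3, smul_smul, smul_smul, Submodule.coe_smul, Submodule.coe_smul, smul_smul]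
      congr 1
      ring
    have hsE : ∀ w, E ((l ^ q * (l ^ q * l⁻¹)) • w) = (l ^ q * (l ^ q * l⁻¹)) • E w := by
      intro w
      rw [← e1, hE A l _ h1 h2, e1]
    have hlin := comm_lin R h hadd hE hlq hsE
    obtain ⟨y, hy⟩ := hspan (E d)
    refine ⟨y, fun w => ?_⟩
    obtain ⟨c, rfl⟩ := hspan w
    rw [hlin, ← hy, smul_smul, smul_smul, mul_comm]

end Rep

end Cfsg.Agent.Lib.AutPSU
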