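/-
Automorphisms of `PSU`: the semilinear structure of the induced map.
-/
import Mathlib
import Cfsg.Agent.Lib.AutPSU.Comm

set_option autoImplicit false
set_option linter.unusedSectionVars false
set_option linter.unusedVariables false
set_option linter.unusedSimpArgs false

namespace Cfsg.Agent.Lib.AutPSU

open Module Cfsg.Agent.Lib.Classical Cfsg.Agent.Lib.Classical.UT

variable {F : Type*} [Field F] [Fintype F] {q : ℕ} {hF : Fintype.card F = q ^ 2}
variable {V : Type*} [AddCommGroup V] [Module F V] [FiniteDimensional F V]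
variable {B : V →ₛₗ[conjQ hF] V →ₗ[F] F} {G : Type*} [Group G] (R : Rep B G)

namespace Rep

include R

variable {e f : V} (h : HP B e f)

include h

lemma rh_smul {A : G} {l m : F} (hAe : R.ac A e = l • e) (hAf : R.ac A f = m • f) (a : F) (w : WW B e f) :
    rh R h A l (a • w) = a • rh R h A l w := by
  apply Subtype.ext
  rw [rh_coe R h hAe hAf, Submodule.coe_smul, Submodule.coe_smul, rh_coe R h hAe hAf, map_smul, smul_comm]

variable {β : (G ⧸ Subgroup.center G) ≃* (G ⧸ Subgroup.center G)} {ψ : WW B e f → WW B e f} {s₀ : F → F}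
variable (H : IsPsi R β h ψ s₀)

include H

/-- Equivariance of the induced map. -/
lemma IsPsi.equiv {A A' : G} {l m l' m' : F} (hAe : R.ac A e = l • e) (hAf : R.ac A f = m • f)
    (hAe' : R.ac A' e = l' • e) (hAf' : R.ac A' f = m' • f) (hβ : β (pk A) = pk A') (w : WW B e f) :
    ψ (rh R h A l w) = rh R h A' l' (ψ w) := by
  obtain ⟨s, hs⟩ := exists_s R h w
  obtain ⟨s', hs', e1⟩ := H.he w s hs
  have e2 := conj_rel R h hAe hAf hAe' hAf' hβ hs hs' e1
  have h3 := (conj_Ee R h hAe hAf w hs).1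
  have h4 := (conj_Ee R h hAe' hAf' (ψ w) hs').1
  obtain ⟨r, hr, e3⟩ := H.he _ _ h3
  rw [e2] at e3
  exact (E_pk_inj R h hr h4 e3.symm).1

/-- The Levi action of the image of an element. -/
lemma exists_levi_symm (hβe : β '' R.Rb e = R.Rb e) (hβf : β '' R.Rb f = R.Rb f) {A' : G} {l' m' : F}
    (hAe' : R.ac A' e = l' • e) (hAf' : R.ac A' f = m' • f) :
    ∃ (A : G) (l m : F), R.ac A e = l • e ∧ R.ac A f = m • f ∧ β (pk A) = pk A' := by
  obtain ⟨A, hA⟩ := exists_pk (β.symm (pk A'))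
  obtain ⟨l, hl⟩ := Pe_pres R β.symm h.e_ne h.ee (image_symm_eq β hβe) (A := A') (A' := A) ⟨l', hAe'⟩ hA.symm
  obtain ⟨m, hm⟩ := Pe_pres R β.symm h.f_ne h.ff (image_symm_eq β hβf) (A := A') (A' := A) ⟨m', hAf'⟩ hA.symm
  exact ⟨A, l, m, hl, hm, by rw [hA]; simp⟩

/-- The field map: `ψ` is semilinear. -/
theorem IsPsi.exists_sigma (hβe : β '' R.Rb e = R.Rb e) (hβf : β '' R.Rb f = R.Rb f) :
    ∃ σ : F ≃+* F, ∀ (a : F) (x : WW B e f), ψ (a • x) = σ a • ψ x := by
  have hbij := H.bij R h hβe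
  have hadd := H.add R h
  let Ψ := Equiv.ofBijective ψ hbij
  have hΨ : ∀ x, ψ (Ψ.symm x) = x := fun x => Ψ.apply_symm_apply x
  have hΨ' : ∀ x, Ψ.symm (ψ x) = x := fun x => Ψ.symm_apply_apply x
  have hsymm_add : ∀ x y, Ψ.symm (x + y) = Ψ.symm x + Ψ.symm y := by
    intro x y
    apply hbij.1
    rw [hΨ, hadd, hΨ, hΨ]
  have h0 : ∀ a : F, ∃ y : F, ∀ w, ψ (a • Ψ.symm w) = y • w := by
    intro a
    refine comm_scalar R h (E := fun w => ψ (a • Ψ.symm w)) ?_ ?_
    · intro x y
      rw [hsymm_add, smul_add, hadd]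
    · intro A' l' m' hAe' hAf' w
      obtain ⟨A, l, m, h1, h2, h3⟩ := exists_levi_symm R h H hβe hβf hAe' hAf'
      have h4 : rh R h A' l' w = ψ (rh R h A l (Ψ.symm w)) := by
        rw [H.equiv R h h1 h2 hAe' hAf' h3, hΨ]
      have h5 : Ψ.symm (rh R h A' l' w) = rh R h A l (Ψ.symm w) := by
        rw [h4, hΨ']
      beta_reduce
      rw [h5, ← rh_smul R h h1 h2, H.equiv R h h1 h2 hAe' hAf' h3]
  choose σ₀ hσ₀ using h0
  have hσ : ∀ (a : F) (x : WW B e f), ψ (a • x) = σ₀ a • ψ x := by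
    intro a x
    rw [← hσ₀, hΨ']
  -- a non-zero vector
  have hfr := finrank_WW h
  have hdim := R.dim
  have hnt : Nontrivial (WW B e f) := Module.nontrivial_of_finrank_pos (R := F) (by omega)
  obtain ⟨x₀, hx₀⟩ := exists_ne (0 : WW B e f)
  have hψ0 : ψ 0 = 0 := by
    have := hadd 0 0
    rw [add_zero] at this
    exact left_eq_add.mp this
  have hy₀ : ψ x₀ ≠ 0 := by
    intro h1
    exact hx₀ (hbij.1 (by rw [h1, hψ0]))
  have hinj : ∀ a b : F, a • ψ x₀ = b • ψ x₀ → a = b := fun a b h1 => smul_left_injective F hy₀ h1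
  let σ : F →+* F :=
    { toFun := σ₀
      map_one' := by
        apply hinj
        rw [← hσ, one_smul, one_smul]
      map_mul' := fun a b => by
        apply hinj
        rw [← hσ, mul_smul, hσ, hσ, smul_smul]
      map_zero' := by
        apply hinj
        rw [← hσ, zero_smul, zero_smul, hψ0]
      map_add' := fun a b => by
        apply hinj
        rw [← hσ, add_smul, hadd, hσ, hσ, add_smul] }
  have hb : Function.Bijective σ := ⟨σ.injective, Finite.surjective_of_injective σ.injective⟩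
  exact ⟨RingEquiv.ofBijective σ hb, hσ⟩

/-- The form transforms by a scalar multiple of the field map. -/
theorem IsPsi.exists_kappa (hβe : β '' R.Rb e = R.Rb e) {σ : F ≃+* F}
    (hσ : ∀ (a : F) (x : WW B e f), ψ (a • x) = σ a • ψ x) :
    ∃ κ : F, κ ^ q = κ ∧ κ ≠ 0 ∧ (∀ x y : WW B e f, B (ψ x : V) (ψ y : V) = κ * σ (B (x : V) (y : V))) ∧
      ∀ c : F, c + c ^ q = 0 → s₀ c = κ * σ c := by
  have hS := R.S
  have hbij := H.bij R h hβe
  have hCN := BW_nondeg h hS R.N
  have hfr := finrank_WW h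
  have hdim := R.dim
  have hnt : Nontrivial (WW B e f) := Module.nontrivial_of_finrank_pos (R := F) (by omega)
  obtain ⟨x₀, hx₀⟩ := exists_ne (0 : WW B e f)
  obtain ⟨y₀, hy₀⟩ : ∃ y : WW B e f, B (x₀ : V) (y : V) ≠ 0 := by
    by_contra hcon
    push Not at hcon
    exact hx₀ (hCN.1 x₀ hcon)
  set v₀ := B (x₀ : V) (y₀ : V) with hv₀
  have hσv₀ : σ v₀ ≠ 0 := fun h0 => hy₀ (by simpa using h0)
  have qsub : ∀ a b : F, (a - b) ^ q = a ^ q - b ^ q := conjQ_sub hF
  -- the basic relation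
  have REL : ∀ (x y : WW B e f) (b : F), (σ b * B (ψ x : V) (ψ y : V)) ^ q - σ b * B (ψ x : V) (ψ y : V) =
      s₀ ((b * B (x : V) (y : V)) ^ q - b * B (x : V) (y : V)) := by
    intro x y b
    have h1 := H.comm R h x (b • y)
    rw [hσ] at h1
    simp only [Submodule.coe_smul, smul_l, smul_r] at h1
    rw [mul_pow, mul_pow, flip_eq hS (ψ x : V) (ψ y : V), flip_eq hS (x : V) (y : V)]
    exact h1
  set κ := B (ψ x₀ : V) (ψ y₀ : V) / σ v₀ with hκ
  have hP₀ : B (ψ x₀ : V) (ψ y₀ : V) = κ * σ v₀ := by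
    rw [hκ]
    field_simp
  have hmain : ∀ x y : WW B e f, B (ψ x : V) (ψ y : V) = κ * σ (B (x : V) (y : V)) := by
    intro x y
    set v := B (x : V) (y : V) with hv
    set P := B (ψ x : V) (ψ y : V) with hP
    have hD : ∀ b : F, (σ b * (P - κ * σ v)) ^ q = σ b * (P - κ * σ v) := by
      intro b
      have h1 := REL x y b
      have h2 := REL x₀ y₀ (b * v / v₀)
      rw [← hv, ← hP] at h1
      rw [← hv₀, hP₀] at h2
      have e1 : b * v / v₀ * v₀ = b * v := by field_simp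
      have e2 : σ (b * v / v₀) * (κ * σ v₀) = σ b * (κ * σ v) := by
        have : b * v / v₀ * v₀ = b * v := e1
        have h3 : σ (b * v / v₀) * σ v₀ = σ b * σ v := by
          rw [← map_mul, ← map_mul, this]
        linear_combination κ * h3
      rw [e1, e2, ← h1] at h2
      have e3 : σ b * (P - κ * σ v) = σ b * P - σ b * (κ * σ v) := by ring
      rw [e3, qsub]
      linear_combination -h2
    by_contra hne
    have hne' : P - κ * σ v ≠ 0 := sub_ne_zero.mpr hne
    apply conjQ_ne_id hF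
    apply RingHom.ext
    intro c
    have h1 := hD (σ.symm (c / (P - κ * σ v)))
    rw [RingEquiv.apply_symm_apply] at h1
    have e1 : c / (P - κ * σ v) * (P - κ * σ v) = c := by field_simp
    rw [e1] at h1
    exact h1
  have hκq : κ ^ q = κ := by
    have h1 := hmain y₀ x₀
    rw [← flip_eq hS (ψ x₀ : V) (ψ y₀ : V), ← flip_eq hS (x₀ : V) (y₀ : V), hP₀, ← hv₀, mul_pow, map_pow] at h1
    exact mul_right_cancel₀ (pow_ne_zero _ hσv₀) h1
  have hκ0 : κ ≠ 0 := by
    intro h0
    have h1 : ∀ y : WW B e f, BW B e f (ψ x₀) y = 0 := by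
      intro y
      obtain ⟨y', rfl⟩ := hbij.2 y
      rw [BW_apply, hmain, h0, zero_mul]
    have h2 := hCN.1 _ h1
    have h3 : ψ 0 = 0 := by
      have := H.add R h 0 0
      rw [add_zero] at this
      exact left_eq_add.mp this
    exact hx₀ (hbij.1 (by rw [h2, h3]))
  refine ⟨κ, hκq, hκ0, hmain, fun c hc => ?_⟩
  obtain ⟨τ, hτ⟩ := exists_trace_one (hF := hF)
  have hcq : c ^ q = -c := by linear_combination hc
  set b := -c * τ with hb
  have hb2 : b ^ q - b = c := by
    rw [hb, mul_pow, conjQ_neg hF, hcq]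
    linear_combination c * hτ
  have h1 := REL x₀ y₀ (b / v₀)
  rw [← hv₀, hP₀] at h1
  have e1 : b / v₀ * v₀ = b := by field_simp
  have e2 : σ (b / v₀) * (κ * σ v₀) = σ b * κ := by
    have h3 : σ (b / v₀) * σ v₀ = σ b := by rw [← map_mul, e1]
    linear_combination κ * h3
  rw [e1, e2, hb2, mul_pow, hκq] at h1
  rw [← h1, ← hb2, map_sub, map_pow]
  ring

end Rep

end Cfsg.Agent.Lib.AutPSU
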