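/-
Automorphisms of `PSU`: semilinear isometries and the automorphisms they induce.
-/
import Mathlib
import Cfsg.Agent.Lib.AutPSU.Semi
import Cfsg.Agent.Lib.Classical.RingCongr3

set_option autoImplicit false
set_option linter.unusedSectionVars false
set_option linter.unusedVariables false
set_option linter.unusedSimpArgs false

namespace Cfsg.Agent.Lib.AutPSU

open Module Cfsg.Agent.Lib.Classical Cfsg.Agent.Lib.Classical.UT

variable {F : Type*} [Field F] [Fintype F] {q : ℕ} {hF : Fintype.card F = q ^ 2}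
variable {V : Type*} [AddCommGroup V] [Module F V] [FiniteDimensional F V]
variable {B : V →ₛₗ[conjQ hF] V →ₗ[F] F} {G : Type*} [Group G]

/-- A semilinear isometry. -/
structure SemiIso (B : V →ₛₗ[conjQ hF] V →ₗ[F] F) (σ : F ≃+* F) (Γ : V →+ V) : Prop where
  smul : ∀ (a : F) (x : V), Γ (a • x) = σ a • Γ x
  form : ∀ x y, B (Γ x) (Γ y) = σ (B x y)
  bij : Function.Bijective Γ

namespace SemiIso

variable {σ : F ≃+* F} {Γ : V →+ V}

lemma of_form (hB : B.Nondegenerate) (h1 : ∀ (a : F) (x : V), Γ (a • x) = σ a • Γ x)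
    (h2 : ∀ x y, B (Γ x) (Γ y) = σ (B x y)) : SemiIso B σ Γ := by
  refine ⟨h1, h2, ?_⟩
  have _ : Finite V := Module.finite_of_finite F
  rw [← Finite.injective_iff_bijective, injective_iff_map_eq_zero]
  intro x hx
  apply hB.1
  intro y
  have := h2 x y
  rw [hx, zero_l] at this
  exact (map_eq_zero_iff σ σ.injective).mp this.symm

variable (H : SemiIso B σ Γ)

include H

lemma tv_comm (v : V) (c : F) (y : V) : tv B (Γ v) (σ c) (Γ y) = Γ (tv B v c y) := by
  rw [tv_apply, tv_apply, map_add, H.smul, H.form, map_mul]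

lemma he_comm (v u : V) (r : F) (y : V) : he B (Γ v) (Γ u) (σ r) (Γ y) = Γ (he B v u r y) := by
  rw [he_apply, he_apply, map_add, map_sub, map_add, H.smul, H.smul, H.smul, H.form, H.form, map_mul]

lemma conj_TG {t : V ≃ₗ[F] V} (ht : t ∈ TG B) : ∃ t' ∈ TG B, ∀ y, t' (Γ y) = Γ (t y) := by
  induction ht using Subgroup.closure_induction with
  | mem a ha =>
    obtain ⟨v, c, hv, hc, h⟩ := ha
    have hv' : B (Γ v) (Γ v) = 0 := by rw [H.form, hv, map_zero]
    have hc' : σ c + (σ c) ^ q = 0 := by rw [← map_pow, ← map_add, hc, map_zero]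
    exact ⟨tvE B (Γ v) (σ c) hv', tvE_mem hv' hc', fun y => by
      rw [tvE_apply, h, ← tv_apply, tv_comm H]⟩
  | one => exact ⟨1, Subgroup.one_mem _, fun y => rfl⟩
  | mul a b _ _ ha hb =>
    obtain ⟨t₁, h₁, e₁⟩ := ha
    obtain ⟨t₂, h₂, e₂⟩ := hb
    exact ⟨t₁ * t₂, Subgroup.mul_mem _ h₁ h₂, fun y => by
      change t₁ (t₂ (Γ y)) = Γ (a (b y))
      rw [e₂, e₁]⟩
  | inv a _ ha =>
    obtain ⟨t₁, h₁, e₁⟩ := ha
    refine ⟨t₁⁻¹, Subgroup.inv_mem _ h₁, fun y => ?_⟩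
    have h2 : t₁ (Γ (a⁻¹ y)) = Γ y := by
      rw [e₁]
      congr 1
      exact a.apply_symm_apply y
    have h3 : t₁⁻¹ (t₁ (Γ (a⁻¹ y))) = Γ (a⁻¹ y) := t₁.symm_apply_apply _
    rw [h2] at h3
    exact h3

end SemiIso

namespace Rep

variable (R : Rep B G) {σ : F ≃+* F} {Γ : V →+ V} (H : SemiIso B σ Γ)

include R H

lemma exists_conj (s : G) : ∃ s' : G, ∀ y, R.ac s' (Γ y) = Γ (R.ac s y) := by
  have hmem : R.ac s ∈ TG B := (mem_TG_iff R.S R.N R.gen _).mpr ⟨R.iso s, R.det s⟩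
  obtain ⟨t', ht', e⟩ := H.conj_TG hmem
  obtain ⟨s', hs'⟩ := R.surj t' (TG_iso R.S ht') (TG_det ht')
  exact ⟨s', fun y => by rw [hs', e]⟩

/-- The conjugation by a semilinear isometry. -/
noncomputable def thF (R : Rep B G) (H : SemiIso B σ Γ) (s : G) : G := Classical.choose (exists_conj R H s)

lemma thF_spec (s : G) (y : V) : R.ac (thF R H s) (Γ y) = Γ (R.ac s y) := Classical.choose_spec (exists_conj R H s) y

lemma thF_uniq {s s' : G} (h : ∀ y, R.ac s' (Γ y) = Γ (R.ac s y)) : thF R H s = s' := by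
  apply R.ext'
  intro x
  obtain ⟨y, rfl⟩ := H.bij.2 x
  rw [thF_spec, h]

lemma thF_mul (a b : G) : thF R H (a * b) = thF R H a * thF R H b := by
  apply thF_uniq
  intro y
  rw [ac_mul, thF_spec, thF_spec, ac_mul]

lemma thF_inj : Function.Injective (thF R H) := by
  intro a b hab
  apply R.ext'
  intro y
  apply H.bij.1
  rw [← thF_spec R H, ← thF_spec R H, hab]

variable [Finite G]

/-- The automorphism of the group. -/
noncomputable def thG (R : Rep B G) (H : SemiIso B σ Γ) : G ≃* G :=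
  MulEquiv.ofBijective (MonoidHom.mk' (thF R H) (thF_mul R H))
    ⟨thF_inj R H, Finite.surjective_of_injective (thF_inj R H)⟩

/-- The automorphism of the central quotient. -/
noncomputable def thP (R : Rep B G) (H : SemiIso B σ Γ) : (G ⧸ Subgroup.center G) ≃* (G ⧸ Subgroup.center G) :=
  QuotientGroup.congr _ _ (thG R H) (RC.map_center_eq (thG R H))

lemma thP_of {s s' : G} (h : ∀ y, R.ac s' (Γ y) = Γ (R.ac s y)) : thP R H (pk s) = pk s' := by
  have h1 : thP R H (pk s) = pk (thF R H s) := rfl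
  rw [h1, thF_uniq R H h]

lemma thP_T {v : V} {c : F} (hv : B v v = 0) (hc : c + c ^ q = 0) : thP R H (pk (R.T v c)) = pk (R.T (Γ v) (σ c)) := by
  have hv' : B (Γ v) (Γ v) = 0 := by rw [H.form, hv, map_zero]
  have hc' : σ c + (σ c) ^ q = 0 := by rw [← map_pow, ← map_add, hc, map_zero]
  apply thP_of
  intro y
  rw [T_ac R hv' hc', T_ac R hv hc, H.tv_comm]

lemma thP_Rb {u : V} (hu : B u u = 0) : thP R H '' R.Rb u = R.Rb (Γ u) := by
  ext x
  constructor
  · rintro ⟨_, ⟨c, hc, rfl⟩, rfl⟩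
    rw [thP_T R H hu hc]
    exact ⟨σ c, by rw [← map_pow, ← map_add, hc, map_zero], rfl⟩
  · rintro ⟨c, hc, rfl⟩
    have hc' : σ.symm c + (σ.symm c) ^ q = 0 := by rw [← map_pow, ← map_add, hc, map_zero]
    refine ⟨_, ⟨σ.symm c, hc', rfl⟩, ?_⟩
    rw [thP_T R H hu hc', RingEquiv.apply_symm_apply]

end Rep

namespace Rep

variable (R : Rep B G) {e f : V} (h : HP B e f)
variable {ψ : WW B e f → WW B e f} {σ : F ≃+* F} {κ a : F}

/-- The semilinear map extending `ψ`. -/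
noncomputable def gam (R : Rep B G) (h : HP B e f) (ψ : WW B e f → WW B e f) (σ : F ≃+* F) (a : F)
    (hadd : ∀ x y, ψ (x + y) = ψ x + ψ y) : V →+ V :=
  AddMonoidHom.mk' (fun x => (σ (B f x) * a) • e + (σ (B e x) * (a ^ q)⁻¹) • f + (a ^ q)⁻¹ • (ψ (prW h x) : V)) (by
    intro x y
    simp only [map_add, add_mul, add_smul, hadd, Submodule.coe_add, smul_add]
    abel)

lemma gam_apply (hadd : ∀ x y, ψ (x + y) = ψ x + ψ y) (x : V) :
    gam R h ψ σ a hadd x = (σ (B f x) * a) • e + (σ (B e x) * (a ^ q)⁻¹) • f + (a ^ q)⁻¹ • (ψ (prW h x) : V) := rfl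

omit R in
lemma psi_zero (hadd : ∀ x y, ψ (x + y) = ψ x + ψ y) : ψ 0 = 0 := by
  have := hadd 0 0
  rw [add_zero] at this
  exact left_eq_add.mp this

lemma gam_e (hadd : ∀ x y, ψ (x + y) = ψ x + ψ y) : gam R h ψ σ a hadd e = a • e := by
  rw [gam_apply, h.fe, h.ee, prW_e h, psi_zero hadd]
  simp

lemma gam_f (hadd : ∀ x y, ψ (x + y) = ψ x + ψ y) : gam R h ψ σ a hadd f = (a ^ q)⁻¹ • f := by
  rw [gam_apply, h.ff, h.ef, prW_f h, psi_zero hadd]
  simp

lemma gam_W (hadd : ∀ x y, ψ (x + y) = ψ x + ψ y) (w : WW B e f) : gam R h ψ σ a hadd w = (a ^ q)⁻¹ • (ψ w : V) := by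
  have hw := mem_WW.mp w.2
  rw [gam_apply, hw.1, hw.2, prW_W h]
  simp

lemma gam_semi (hadd : ∀ x y, ψ (x + y) = ψ x + ψ y) (hσ : ∀ (a : F) (x : WW B e f), ψ (a • x) = σ a • ψ x)
    (hform : ∀ x y : WW B e f, B (ψ x : V) (ψ y : V) = κ * σ (B (x : V) (y : V))) (ha : a ^ q * a = κ) (hκ : κ ≠ 0) :
    SemiIso B σ (gam R h ψ σ a hadd) := by
  have hS := R.S
  have ha0 : a ≠ 0 := by
    rintro rfl
    have hq := one_lt_q hF
    rw [zero_pow (by omega), zero_mul] at ha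
    exact hκ ha.symm
  have haq : a ^ q ≠ 0 := pow_ne_zero _ ha0
  have h1 : a ^ q * (a ^ q)⁻¹ = 1 := mul_inv_cancel₀ haq
  have h2 : ((a ^ q)⁻¹) ^ q * a = 1 := by
    rw [inv_pow, pow_q_pow_q hF, inv_mul_cancel₀ ha0]
  have h3 : ((a ^ q)⁻¹) ^ q * (a ^ q)⁻¹ * κ = 1 := by
    rw [inv_pow, pow_q_pow_q hF, ← ha]
    field_simp
  apply SemiIso.of_form R.N
  · intro c x
    rw [gam_apply, gam_apply]
    have e1 : prW h (c • x) = c • prW h x := map_smul _ _ _
    rw [e1, hσ, Submodule.coe_smul, smul_r, smul_r, map_mul, map_mul]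
    (module)
  · intro x y
    simp only [gam_apply]
    have hx := mem_WW.mp (ψ (prW h x)).2
    have hy := mem_WW.mp (ψ (prW h y)).2
    have hx1 := flip_zero hS hx.1
    have hx2 := flip_zero hS hx.2
    have hd := form_decomp h hS x y
    rw [hd]
    simp only [add_l, add_r, smul_l, smul_r, h.ee, h.ef, h.ff, h.fe, hx.1, hx.2, hy.1, hy.2, hx1, hx2, mul_pow,
      hform, mul_one, mul_zero, add_zero, zero_add]
    rw [map_add, map_add, map_mul, map_mul, map_pow, map_pow]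
    linear_combination (σ (B f x) ^ q * σ (B e y)) * h1 + (σ (B e x) ^ q * σ (B f y)) * h2 +
      σ (B (prW h x : V) (prW h y : V)) * h3

end Rep

end Cfsg.Agent.Lib.AutPSU
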