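/-
Automorphisms of `PSU`: an automorphism which is trivial on the radical modulo its centre is the identity.
-/
import Mathlib
import Cfsg.Agent.Lib.AutPSU.Gamma

set_option autoImplicit false
set_option linter.unusedSectionVars false
set_option linter.unusedVariables false
set_option linter.unusedSimpArgs false

namespace Cfsg.Agent.Lib.AutPSU

open Module Cfsg.Agent.Lib.Classical Cfsg.Agent.Lib.Classical.UT

variable {F : Type*} [Field F] [Fintype F] {q : ℕ} {hF : Fintype.card F = q ^ 2}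
variable {V : Type*} [AddCommGroup V] [Module F V] [FiniteDimensional F V]
variable {B : V →ₛₗ[conjQ hF] V →ₗ[F] F} {G : Type*} [Group G] (R : Rep B G)

namespace Rep

/-- The situation after composing with a semilinear automorphism. -/
structure Tame (R : Rep B G) (β : (G ⧸ Subgroup.center G) ≃* (G ⧸ Subgroup.center G)) {e f : V} (h : HP B e f) : Prop where
  re : ∀ c : F, c + c ^ q = 0 → β (pk (R.T e c)) = pk (R.T e c)
  qe : ∀ (w : WW B e f) (s : F), s + s ^ q + B w w = 0 → ∃ r : F, r + r ^ q + B w w = 0 ∧ β (pk (R.E e w s)) = pk (R.E e w r)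
  ie : β '' R.Rb e = R.Rb e
  jf : β '' R.Rb f = R.Rb f

include R

variable {e f : V} (h : HP B e f) {β : (G ⧸ Subgroup.center G) ≃* (G ⧸ Subgroup.center G)} (H : Tame R β h)

include h H

/-- Levi elements are fixed. -/
lemma Tame.levi {A : G} {l m : F} (hAe : R.ac A e = l • e) (hAf : R.ac A f = m • f) : β (pk A) = pk A := by
  have hS := R.S
  obtain ⟨A', hA'⟩ := exists_pk (β (pk A))
  obtain ⟨l', hl'⟩ := Pe_pres R β h.e_ne h.ee H.ie (A := A) (A' := A') ⟨l, hAe⟩ hA'.symm
  obtain ⟨m', hm'⟩ := Pe_pres R β h.f_ne h.ff H.jf (A := A) (A' := A') ⟨m, hAf⟩ hA'.symm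
  have hl0 := coef_ne R h.e_ne hAe
  have hl0' := coef_ne R h.e_ne hl'
  have hm0 := coef_ne R h.f_ne hAf
  have hm0' := coef_ne R h.f_ne hm'
  -- equality on the complement
  have hrh : ∀ w : WW B e f, rh R h A l w = rh R h A' l' w := by
    intro w
    obtain ⟨s, hs⟩ := exists_s R h w
    obtain ⟨r, hr, e1⟩ := H.qe w s hs
    have e2 := conj_rel R h hAe hAf hl' hm' hA'.symm hs hr e1
    have h3 := (conj_Ee R h hAe hAf w hs).1
    have h4 := (conj_Ee R h hl' hm' w hr).1
    obtain ⟨r₂, hr₂, e3⟩ := H.qe _ _ h3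
    rw [e2] at e3
    exact (E_pk_inj R h h4 hr₂ e3).1.symm
  -- equality of norms
  obtain ⟨ε, hε0, hε⟩ := exists_eps (hF := hF)
  have hN : l ^ q * l = l' ^ q * l' := by
    have h1 : A * R.T e ε * A⁻¹ = R.T e (ε * l ^ q * l) := by
      rw [conj_T R A h.ee hε, hAe, T_smul R h.ee hε]
    have h2 : A' * R.T e ε * A'⁻¹ = R.T e (ε * l' ^ q * l') := by
      rw [conj_T R A' h.ee hε, hl', T_smul R h.ee hε]
    have h3 : pk (R.T e (ε * l ^ q * l)) = pk (R.T e (ε * l' ^ q * l')) := by
      rw [← H.re _ (F0_mul_norm hF hε), ← h1, ← h2, pk_mul, pk_mul, pk_inv, map_mul, map_mul, map_inv, H.re _ hε, pk_mul, pk_mul, pk_inv,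
        hA']
    have hq := one_lt_q hF
    have h5 : ∀ {c : F}, c + c ^ q = 0 → c + c ^ q + B ((0 : WW B e f) : V) ((0 : WW B e f) : V) = 0 := by
      intro c hc
      simpa using hc
    have h4 := (E_pk_inj R h (w := 0) (w' := 0) (h5 (F0_mul_norm hF hε)) (h5 (F0_mul_norm hF hε)) h3).2
    have h6 : ε * (l ^ q * l) = ε * (l' ^ q * l') := by linear_combination h4
    exact mul_left_cancel₀ hε0 h6
  have hmm : l ^ q * m = 1 := by
    have := R.iso A e f
    rwa [hAe, hAf, smul_l, smul_r, h.ef, mul_one] at this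
  have hmm' : l' ^ q * m' = 1 := by
    have := R.iso A' e f
    rwa [hl', hm', smul_l, smul_r, h.ef, mul_one] at this
  have hlq : l ^ q ≠ 0 := pow_ne_zero _ hl0
  have hlq' : l' ^ q ≠ 0 := pow_ne_zero _ hl0'
  set η := l' * l⁻¹ with hη
  have hη2 : l' ^ q * η = l ^ q := by
    rw [hη]
    field_simp
    linear_combination -hN
  have hall : ∀ x, R.ac A' x = η • R.ac A x := by
    intro x
    have hW : ∀ w : WW B e f, R.ac A' w = η • R.ac A w := by
      intro w
      have h1 := congrArg Subtype.val (hrh w)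
      rw [rh_coe R h hAe hAf, rh_coe R h hl' hm'] at h1
      have h2 : l' ^ q • R.ac A' w = l' ^ q • (η • R.ac A w) := by
        rw [← h1, smul_smul, hη2]
      exact smul_right_injective V hlq' h2
    have he' : R.ac A' e = η • R.ac A e := by
      rw [hl', hAe, smul_smul, hη]
      congr 1
      field_simp
    have hf' : R.ac A' f = η • R.ac A f := by
      rw [hm', hAf, smul_smul]
      congr 1
      have h1 : l' ^ q * (η * m) = l' ^ q * m' := by
        rw [hmm', ← mul_assoc, hη2, hmm]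
      exact (mul_left_cancel₀ hlq' h1).symm
    have e1 := decomp h x
    rw [e1]
    simp only [map_add, map_smul, he', hf', hW, smul_add]
    rw [smul_comm η, smul_comm η]
  rw [← hA']
  exact ((pk_eq_iff R).mpr ⟨η, hall⟩).symm

/-- The radical of the parabolic is fixed. -/
lemma Tame.qfix (w : WW B e f) {s : F} (hs : s + s ^ q + B w w = 0) : β (pk (R.E e w s)) = pk (R.E e w s) := by
  have hS := R.S
  have hq := one_lt_q hF
  have hCN := BW_nondeg h hS R.N
  have hC := BW_symm hS e f
  -- the defect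
  have h0 : ∀ w : WW B e f, ∃ z : F, z + z ^ q = 0 ∧ ∀ s : F, s + s ^ q + B w w = 0 →
      β (pk (R.E e w s)) = pk (R.E e w (s + z)) := by
    intro w
    obtain ⟨s₁, hs₁⟩ := exists_s R h w
    obtain ⟨r₁, hr₁, e1⟩ := H.qe w s₁ hs₁
    have hz : (r₁ - s₁) + (r₁ - s₁) ^ q = 0 := by
      rw [conjQ_sub hF]
      linear_combination hr₁ - hs₁
    refine ⟨r₁ - s₁, hz, fun s hs => ?_⟩
    have hc : (s - s₁) + (s - s₁) ^ q = 0 := by
      rw [conjQ_sub hF]
      linear_combination hs - hs₁
    have e2 : R.E e w s = R.T e (s - s₁) * R.E e w s₁ := by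
      rw [T_mul_E R (adm_W R h w hs₁) hc]
      congr 1
      ring
    rw [e2, pk_mul, map_mul, H.re _ hc, e1, ← pk_mul, T_mul_E R (adm_W R h w hr₁) hc]
    congr 2
    ring
  choose z hz hz2 using h0
  have hadm : ∀ (w : WW B e f) {s : F}, s + s ^ q + B w w = 0 → (s + z w) + (s + z w) ^ q + B w w = 0 := by
    intro w s hs
    have h5 : (s + z w) ^ q = s ^ q + (z w) ^ q := map_add (conjQ hF) _ _
    rw [h5]
    linear_combination hs + hz w
  -- additivity
  have hzadd : ∀ x y, z (x + y) = z x + z y := by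
    intro x y
    obtain ⟨s, hs⟩ := exists_s R h x
    obtain ⟨t, ht⟩ := exists_s R h y
    have ha₁ := adm_W R h x hs
    have ha₂ := adm_W R h y ht
    have ha₁' := adm_W R h x (hadm x hs)
    have ha₂' := adm_W R h y (hadm y ht)
    have e1 := E_mul R ha₁ ha₂
    have e2 := E_mul R ha₁' ha₂'
    have hr := (adm_add R ha₁ ha₂).tr
    have hr' := (adm_add R ha₁' ha₂').tr
    have e3 := hz2 (x + y) _ hr
    have e4 : pk (R.E e ((x + y : WW B e f) : V) (s + t - B (x : V) (y : V) + z (x + y))) =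
        pk (R.E e ((x + y : WW B e f) : V) (s + z x + (t + z y) - B (x : V) (y : V))) := by
      rw [← e3]
      change β (pk (R.E e ((x : V) + y) _)) = pk (R.E e ((x : V) + y) _)
      rw [← e1, ← e2, pk_mul, map_mul, hz2 x s hs, hz2 y t ht]
      rfl
    have e5 := (E_pk_inj R h (hadm (x + y) hr) hr' e4).2
    linear_combination e5
  -- equivariance
  have hzeq : ∀ {A : G} {l m : F}, R.ac A e = l • e → R.ac A f = m • f → ∀ w, z (rh R h A l w) = z w * (l ^ q * l) := by
    intro A l m hAe hAf w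
    obtain ⟨s, hs⟩ := exists_s R h w
    have e1 := conj_rel R h hAe hAf hAe hAf (H.levi R h hAe hAf) hs (hadm w hs) (hz2 w s hs)
    have h3 := (conj_Ee R h hAe hAf w hs).1
    have h4 := (conj_Ee R h hAe hAf w (hadm w hs)).1
    rw [hz2 _ _ h3] at e1
    have e2 := (E_pk_inj R h (hadm _ h3) h4 e1).2
    linear_combination e2
  have hz0 : z 0 = 0 := by
    have := hzadd 0 0
    rw [add_zero] at this
    exact left_eq_add.mp this
  have hfr := finrank_WW h
  have hdim := R.dim
  -- the defect vanishes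
  have hzero : ∀ w, z w = 0 := by
    by_cases hw2 : 2 ≤ finrank F (WW B e f)
    · have hiso : ∀ v : WW B e f, BW B e f v v = 0 → ∀ a : F, z (a • v) = 0 := by
        intro v hvv a
        by_cases hv0 : v = 0
        · rw [hv0, smul_zero, hz0]
        obtain ⟨ε, hε0, hε⟩ := exists_eps (hF := hF)
        obtain ⟨v', hv'⟩ := exists_HP hC hCN hv0 hvv
        have hv2 : HP B (v : V) v' := ⟨hv'.ee, hv'.ff, hv'.ef, hv'.fe⟩
        have hvv' : B (v : V) (v : V) = 0 := hvv
        obtain ⟨h1, h2⟩ := T_W R h v hvv' hε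
        have e1 : rh R h (R.T v ε) 1 ((a / ε) • v') = ((a / ε) • v') + a • v := by
          refine rh_of R h h1 h2 ?_
          rw [one_pow, one_smul, T_ac R hvv' hε, tv_apply]
          simp only [Submodule.coe_add, Submodule.coe_smul, smul_r, hv2.ef, mul_one]
          congr 2
          field_simp
        have e2 := hzeq h1 h2 ((a / ε) • v')
        rw [e1, hzadd, one_pow, one_mul, mul_one] at e2
        exact left_eq_add.mp e2.symm
      let 𝓩 : Submodule F (WW B e f) :=
        { carrier := {x | ∀ a : F, z (a • x) = 0}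
          add_mem' := fun {a b} ha hb c => by rw [smul_add, hzadd, ha c, hb c, add_zero]
          zero_mem' := fun c => by rw [smul_zero, hz0]
          smul_mem' := fun c x hx a => by rw [smul_smul]; exact hx _ }
      intro w
      have h1 : Submodule.span F {c : WW B e f | BW B e f c c = 0} ≤ 𝓩 := Submodule.span_le.mpr (fun c hc => hiso c hc)
      have h2 := h1 (iso_span hC hCN hw2 w) 1
      rwa [one_smul] at h2
    · have hw1 : finrank F (WW B e f) = 1 := by omega
      have hV3 : finrank F V = 3 := by omega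
      have hq2 : q ≠ 2 := by
        rcases R.gen with h1 | h1
        · exact absurd hV3 h1
        · exact h1
      by_cases h20 : (2 : F) = 0
      · -- characteristic two
        have hnt : Nontrivial (WW B e f) := Module.nontrivial_of_finrank_pos (R := F) (by omega)
        obtain ⟨d, hd⟩ := exists_aniso hC hCN hnt
        have hd0 : d ≠ 0 := by
          rintro rfl
          exact hd (by simp)
        have hspan := (finrank_eq_one_iff_of_nonzero' d hd0).mp hw1
        have hk : ¬ (q + 1) ∣ 3 := Nat.not_dvd_of_pos_of_lt (by norm_num) (by omega)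
        obtain ⟨l, hl, hlq⟩ := exists_pow_not_fixed hF hk
        obtain ⟨lam, hlam⟩ : ∃ x : F, x = l ^ q * l⁻¹ := ⟨_, rfl⟩
        have hlam0 : lam ≠ 0 := by
          rw [hlam]
          exact mul_ne_zero (pow_ne_zero _ hl) (inv_ne_zero hl)
        have hN : lam ^ q * lam = 1 := by
          rw [hlam, mul_pow, inv_pow, pow_q_pow_q hF]
          field_simp
        obtain ⟨A, h1, h2, h3⟩ := exists_D' R h hd hlam0
        obtain ⟨u, hu⟩ : ∃ x : F, x = lam ^ q * (lam ^ q * lam⁻¹) := ⟨_, rfl⟩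
        have e1 : ∀ w : WW B e f, rh R h A lam w = u • w := by
          intro w
          refine rh_of R h h1 h2 ?_
          obtain ⟨c, rfl⟩ := hspan w
          rw [Submodule.coe_smul, map_smul, h3, smul_smul, smul_smul, Submodule.coe_smul, Submodule.coe_smul, smul_smul, hu]
          congr 1
          ring
        have e2 : ∀ w, z (u • w) = z w := by
          intro w
          rw [← e1, hzeq h1 h2, hN, mul_one]
        have huq : u ^ q * u = 1 := by
          have h5 : (lam ^ q) ^ q = lam := pow_q_pow_q hF lam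
          rw [hu, mul_pow, mul_pow, inv_pow, h5]
          have h6 : lam ^ q = lam⁻¹ := eq_inv_of_mul_eq_one_left hN
          rw [h6, inv_inv]
          field_simp
        obtain ⟨τ, hτ⟩ : ∃ x : F, x = u + u ^ q := ⟨_, rfl⟩
        have hτq : τ ^ q = τ := by
          rw [hτ]
          have h5 : (u + u ^ q) ^ q = u ^ q + (u ^ q) ^ q := map_add (conjQ hF) _ _
          rw [h5, pow_q_pow_q hF]
          ring
        have hτ0 : τ ≠ 0 := by
          intro h0
          have h5 : u ^ q = u := by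
            rw [hτ] at h0
            linear_combination h0 - u * h20
          rw [h5] at huq
          have h6 : (u - 1) * (u - 1) = 0 := by linear_combination huq + (1 - u) * h20
          have h7 : u = 1 := sub_eq_zero.mp (mul_self_eq_zero.mp h6)
          apply hlq
          -- `u = 1` forces `l³` to be fixed
          have h8 : lam ^ q = lam⁻¹ := eq_inv_of_mul_eq_one_left hN
          rw [hu, h8] at h7
          have h9 : lam ^ 3 = 1 := by
            have h12 : lam ^ 3 * (lam⁻¹ * (lam⁻¹ * lam⁻¹)) = 1 := by field_simp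
            rw [h7, mul_one] at h12
            exact h12
          have h11 : l ^ q = lam * l := by
            rw [hlam]
            field_simp
          rw [← pow_mul, mul_comm, pow_mul, h11, mul_pow, h9, one_mul]
        have e3 : ∀ x : WW B e f, z (τ • x) = z x * τ ^ 2 := by
          intro x
          obtain ⟨A₁, h₁, h₂, h₃⟩ := exists_lt R h hτq hτ0
          have e4 : rh R h A₁ τ x = τ • x := rh_of R h h₁ h₂ (by rw [h₃, hτq]; rfl)
          rw [← e4, hzeq h₁ h₂, hτq, pow_two]
        intro w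
        have e5 : (u * u + 1) • w = (τ * u) • w := by
          congr 1
          rw [hτ]
          linear_combination -huq
        have e6 := congrArg z e5
        rw [add_smul, one_smul, hzadd, mul_smul, e2, e2, mul_smul, e3, e2] at e6
        have e7 : z w * τ ^ 2 = 0 := by linear_combination -e6 + z w * h20
        exact (mul_eq_zero.mp e7).resolve_right (pow_ne_zero _ hτ0)
      · -- odd characteristic
        intro w
        have h2q : (2 : F) ^ q = 2 := by
          have : (2 : F) = 1 + 1 := by norm_num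
          rw [this, pow_q_add hF, one_pow]
        obtain ⟨A, h1, h2, h3⟩ := exists_lt R h h2q h20
        have e4 : rh R h A 2 w = (2 : F) • w := rh_of R h h1 h2 (by rw [h3, h2q]; rfl)
        have e5 := hzeq h1 h2 w
        rw [e4, h2q, two_smul, hzadd] at e5
        have e6 : 2 * z w = 0 := by linear_combination -e5
        exact (mul_eq_zero.mp e6).resolve_left h20
  have := hz2 w s hs
  rwa [hzero, add_zero] at this

/-- The elements of `Q_e` are fixed. -/
lemma Tame.Qe_fix {x : G} (hx : x ∈ R.Qu e) : β (pk x) = pk x := by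
  obtain ⟨w, s, ha, hfw, rfl⟩ := Qu_struct R h hx
  exact H.qfix R h ⟨w, mem_WW.mpr ⟨ha.vu, hfw⟩⟩ ha.tr

/-- The opposite root group is fixed. -/
lemma Tame.rf {d : F} (hd : d + d ^ q = 0) : β (pk (R.T f d)) = pk (R.T f d) := by
  have hS := R.S
  by_cases hd0 : d = 0
  · subst hd0
    rw [T_zero R h.ff, pk_one, map_one]
  have h1 : β (pk (R.T f d)) ∈ R.Rb f := by
    rw [← H.jf]
    exact ⟨_, ⟨d, hd, rfl⟩, rfl⟩
  obtain ⟨d', hd', e1⟩ := h1
  set c := -d⁻¹ with hc
  have hc1 : c + c ^ q = 0 := by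
    rw [hc]
    exact inv_trace_zero (hF := hF) hd0 hd
  have hcd : 1 + c * d = 0 := by
    rw [hc]
    field_simp
    ring
  have hc0 : c ≠ 0 := by
    rw [hc]
    exact neg_ne_zero.mpr (inv_ne_zero hd0)
  -- the Weyl elements
  have hw : ∀ {d₁ : F}, d₁ + d₁ ^ q = 0 → R.ac (R.T e c * R.T f d₁ * R.T e c) e = (1 + c * d₁) • e + d₁ • f := by
    intro d₁ hd₁
    have s1 : R.ac (R.T e c) e = e := by
      rw [T_ac R h.ee hc1, tv_apply, h.ee]
      simp
    have s2 : R.ac (R.T f d₁) e = e + d₁ • f := by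
      rw [T_ac R h.ff hd₁, tv_apply, h.fe, mul_one]
    have s3 : R.ac (R.T e c) (e + d₁ • f) = (1 + c * d₁) • e + d₁ • f := by
      rw [T_ac R h.ee hc1, tv_apply]
      simp only [add_r, smul_r, h.ee, h.ef, mul_one, zero_add]
      rw [add_smul, one_smul]
      abel
    rw [ac_mul, ac_mul, s1, s2, s3]
  have hβw : β (pk (R.T e c * R.T f d * R.T e c)) = pk (R.T e c * R.T f d' * R.T e c) := by
    rw [pk_mul, pk_mul, map_mul, map_mul, H.re c hc1, e1]
    rfl
  obtain ⟨ε, hε0, hε⟩ := exists_eps (hF := hF)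
  set w₀ := R.T e c * R.T f d * R.T e c with hw₀
  set w₁ := R.T e c * R.T f d' * R.T e c with hw₁
  have hw₀e : R.ac w₀ e = d • f := by
    rw [hw₀, hw hd, hcd, zero_smul, zero_add]
  have e2 : w₀ * R.T e ε * w₀⁻¹ = R.T f (ε * d ^ q * d) := by
    rw [conj_T R w₀ h.ee hε, hw₀e, T_smul R h.ff hε]
  have h3 : β (pk (R.T f (ε * d ^ q * d))) ∈ R.Rb f := by
    rw [← H.jf]
    exact ⟨_, ⟨_, F0_mul_norm hF hε, rfl⟩, rfl⟩
  obtain ⟨c₂, hc₂, e3⟩ := h3
  have e4 : pk (R.T (R.ac w₁ e) ε) = pk (R.T f c₂) := by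
    calc pk (R.T (R.ac w₁ e) ε) = pk (w₁ * R.T e ε * w₁⁻¹) := by rw [conj_T R w₁ h.ee hε]
      _ = pk w₁ * pk (R.T e ε) * (pk w₁)⁻¹ := rfl
      _ = β (pk w₀) * β (pk (R.T e ε)) * (β (pk w₀))⁻¹ := by rw [hβw, H.re _ hε]
      _ = β (pk w₀ * pk (R.T e ε) * (pk w₀)⁻¹) := by rw [map_mul, map_mul, map_inv]
      _ = β (pk (w₀ * R.T e ε * w₀⁻¹)) := rfl
      _ = β (pk (R.T f (ε * d ^ q * d))) := by rw [e2]
      _ = pk (R.T f c₂) := e3
  obtain ⟨-, μ, hμ⟩ := pk_T_eq R (ac_ne_zero R w₁ h.e_ne) (by rw [R.iso, h.ee]) h.ff hε0 hε hc₂ e4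
  have hμ0 : μ ≠ 0 := by
    rintro rfl
    rw [zero_smul] at hμ
    exact h.f_ne hμ
  have h5 := congrArg (B f) hμ
  rw [hw₁, hw hd', smul_r, add_r, smul_r, smul_r, h.ff, h.fe] at h5
  have h6 : 1 + c * d' = 0 := by
    have : μ * (1 + c * d') = 0 := by linear_combination -h5
    exact (mul_eq_zero.mp this).resolve_left hμ0
  have h7 : d' = d := by
    have : c * d' = c * d := by linear_combination h6 - hcd
    exact mul_left_cancel₀ hc0 this
  rw [e1, h7]

omit h H in
/-- Conjugating `Q_f` to `Q_e`. -/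
lemma Qu_conj' {g x : G} {e f : V} {a : F} (ha : a ≠ 0) (hg : R.ac g e = a • f) (hx : x ∈ R.Qu f) :
    g⁻¹ * x * g ∈ R.Qu e := by
  obtain ⟨h1, h2⟩ := hx
  have hi : a • R.ac g⁻¹ f = e := by
    have h0 := ac_inv_ac R g e
    rw [hg, map_smul] at h0
    exact h0
  refine ⟨?_, fun z hz => ?_⟩
  · rw [ac_mul, ac_mul, hg, map_smul, h1, map_smul, hi]
  · have hz' : B f (R.ac g z) = 0 := by
      have h0 := R.iso g e z
      rw [hg, smul_l, hz] at h0
      exact (mul_eq_zero.mp h0).resolve_left (pow_ne_zero _ ha)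
    obtain ⟨b, hb⟩ := h2 _ hz'
    refine ⟨b * a⁻¹, ?_⟩
    rw [ac_mul, ac_mul, hb, map_add, ac_inv_ac, map_smul]
    congr 1
    rw [← hi, smul_smul, mul_assoc, inv_mul_cancel₀ ha, mul_one]

/-- The elements of `Q_f` are fixed. -/
lemma Tame.Qf_fix {x : G} (hx : x ∈ R.Qu f) : β (pk x) = pk x := by
  have hS := R.S
  obtain ⟨ε, hε0, hε⟩ := exists_eps (hF := hF)
  set c := -ε⁻¹ with hc
  have hc1 : c + c ^ q = 0 := by
    rw [hc]
    exact inv_trace_zero (hF := hF) hε0 hε
  have hcd : 1 + c * ε = 0 := by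
    rw [hc]
    field_simp
    ring
  set g := R.T e c * R.T f ε * R.T e c with hg
  have hge : R.ac g e = ε • f := by
    have s1 : R.ac (R.T e c) e = e := by
      rw [T_ac R h.ee hc1, tv_apply, h.ee]
      simp
    have s2 : R.ac (R.T f ε) e = e + ε • f := by
      rw [T_ac R h.ff hε, tv_apply, h.fe, mul_one]
    have s3 : R.ac (R.T e c) (e + ε • f) = (1 + c * ε) • e + ε • f := by
      rw [T_ac R h.ee hc1, tv_apply]
      simp only [add_r, smul_r, h.ee, h.ef, mul_one, zero_add]
      rw [add_smul, one_smul]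
      abel
    rw [hg, ac_mul, ac_mul, s1, s2, s3, hcd, zero_smul, zero_add]
  have hgfix : β (pk g) = pk g := by
    rw [hg, pk_mul, pk_mul, map_mul, map_mul, H.re c hc1, H.rf R h hε]
  have h1 := Qu_conj' R hε0 hge hx
  have h2 := H.Qe_fix R h h1
  have e1 : x = g * (g⁻¹ * x * g) * g⁻¹ := by group
  rw [e1, pk_mul, pk_mul, pk_inv, map_mul, map_mul, map_inv, h2, hgfix]

/-- All transvections are fixed. -/
lemma Tame.allT {u : V} (huu : B u u = 0) {c : F} (hc : c + c ^ q = 0) : β (pk (R.T u c)) = pk (R.T u c) := by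
  have hS := R.S
  by_cases hEu : B e u = 0
  · by_cases hFu : B f u = 0
    · have hu : u ∈ WW B e f := mem_WW.mpr ⟨hEu, hFu⟩
      obtain ⟨h1, h2⟩ := T_W R h (⟨u, hu⟩ : WW B e f) huu hc
      exact H.levi R h h1 h2
    · set μ := B f u with hμ
      set u₁ := μ⁻¹ • u with hu₁
      have h1 : B f u₁ = 1 := by
        rw [hu₁, smul_r, inv_mul_cancel₀ hFu]
      have h2 : B u₁ u₁ = 0 := by
        rw [hu₁, smul_r, smul_l, huu]
        simp
      have e1 : u = μ • u₁ := by
        rw [hu₁, smul_smul, mul_inv_cancel₀ hFu, one_smul]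
      rw [e1, T_smul R h2 hc]
      obtain ⟨w, s, ha, hfw, hw⟩ := exists_he_to R h.symm h1 h2
      have hc' := F0_mul_norm hF (a := μ) hc
      have e2 : R.E f w s * R.T e (c * μ ^ q * μ) * (R.E f w s)⁻¹ = R.T u₁ (c * μ ^ q * μ) := by
        rw [conj_T R _ h.ee hc', E_ac R ha, hw]
      rw [← e2, pk_mul, pk_mul, pk_inv, map_mul, map_mul, map_inv, H.re _ hc', H.Qf_fix R h (E_mem_Qu R ha)]
  · set μ := B e u with hμ
    set u₁ := μ⁻¹ • u with hu₁
    have h1 : B e u₁ = 1 := by
      rw [hu₁, smul_r, inv_mul_cancel₀ hEu]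
    have h2 : B u₁ u₁ = 0 := by
      rw [hu₁, smul_r, smul_l, huu]
      simp
    have e1 : u = μ • u₁ := by
      rw [hu₁, smul_smul, mul_inv_cancel₀ hEu, one_smul]
    rw [e1, T_smul R h2 hc]
    obtain ⟨w, s, ha, hfw, hw⟩ := exists_he_to R h h1 h2
    have hc' := F0_mul_norm hF (a := μ) hc
    have e2 : R.E e w s * R.T f (c * μ ^ q * μ) * (R.E e w s)⁻¹ = R.T u₁ (c * μ ^ q * μ) := by
      rw [conj_T R _ h.ff hc', E_ac R ha, hw]
    rw [← e2, pk_mul, pk_mul, pk_inv, map_mul, map_mul, map_inv, H.rf R h hc', H.Qe_fix R h (E_mem_Qu R ha)]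

/-- A tame automorphism is the identity. -/
theorem Tame.eq_id (x : G ⧸ Subgroup.center G) : β x = x := by
  have key : ∀ t ∈ TG B, ∀ g : G, R.ac g = t → β (pk g) = pk g := by
    intro t ht
    induction ht using Subgroup.closure_induction with
    | mem a ha =>
      intro g hg
      obtain ⟨v, c, hv, hc, h1⟩ := ha
      have e1 : g = R.T v c := by
        apply R.ext'
        intro x
        rw [hg, h1, T_ac R hv hc]
      rw [e1]
      exact H.allT R h hv hc
    | one =>
      intro g hg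
      have e1 : g = 1 := R.inj (by rw [hg, map_one])
      rw [e1, pk_one, map_one]
    | mul a b ha' hb' ha hb =>
      intro g hg
      obtain ⟨g₁, h₁⟩ := R.surj a (TG_iso R.S ha') (TG_det ha')
      obtain ⟨g₂, h₂⟩ := R.surj b (TG_iso R.S hb') (TG_det hb')
      have e1 : g = g₁ * g₂ := R.inj (by rw [hg, map_mul, h₁, h₂])
      rw [e1, pk_mul, map_mul, ha g₁ h₁, hb g₂ h₂]
    | inv a ha' ha =>
      intro g hg
      obtain ⟨g₁, h₁⟩ := R.surj a (TG_iso R.S ha') (TG_det ha')
      have e1 : g = g₁⁻¹ := R.inj (by rw [hg, map_inv, h₁])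
      rw [e1, pk_inv, map_inv, ha g₁ h₁]
  obtain ⟨g, rfl⟩ := exists_pk x
  exact key _ ((mem_TG_iff R.S R.N R.gen _).mpr ⟨R.iso g, R.det g⟩) g rfl

end Rep

end Cfsg.Agent.Lib.AutPSU
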