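/-
Automorphisms of `PSU`: every automorphism of the central quotient is induced by a semilinear isometry.
-/
import Mathlib
import Cfsg.Agent.Lib.AutPSU.Tame

set_option autoImplicit false
set_option linter.unusedSectionVars false
set_option linter.unusedVariables false
set_option linter.unusedSimpArgs false

namespace Cfsg.Agent.Lib.AutPSU

open Module Cfsg.Agent.Lib.Classical Cfsg.Agent.Lib.Classical.UT

variable {F : Type*} [Field F] [Fintype F] {q : ℕ} {hF : Fintype.card F = q ^ 2}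
variable {V : Type*} [AddCommGroup V] [Module F V] [FiniteDimensional F V]
variable {B : V →ₛₗ[conjQ hF] V →ₗ[F] F} {G : Type*} [Group G] (R : Rep B G)

namespace Rep

/-- Every automorphism of the central quotient is induced by a semilinear isometry. -/
theorem main_abs (p : ℕ) [hp : Fact p.Prime] [CharP F p] [Finite G]
    (β : (G ⧸ Subgroup.center G) ≃* (G ⧸ Subgroup.center G)) :
    ∃ (σ : F ≃+* F) (Γ : V →+ V), SemiIso B σ Γ ∧
      ∀ s s' : G, (∀ y, R.ac s' (Γ y) = Γ (R.ac s y)) → β (pk s) = pk s' := by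
  have hS := R.S
  have hdim := R.dim
  obtain ⟨e, he0, hee⟩ := exists_isotropic hS R.N (show 2 ≤ finrank F V by omega)
  obtain ⟨f, h⟩ := exists_HP hS R.N he0 hee
  obtain ⟨g, hg1, hg2⟩ := exists_good R p β h
  set β' := nrm β g with hβ'
  obtain ⟨ψ, s₀, H⟩ := exists_psi R h p β' hg1
  have hadd := H.add R h
  obtain ⟨σ, hσ⟩ := H.exists_sigma R h hg1 hg2
  obtain ⟨κ, hκq, hκ0, hform, hs₀⟩ := H.exists_kappa R h hg1 hσ
  obtain ⟨a, ha⟩ := exists_norm (hF := hF) hκq
  have hq := one_lt_q hF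
  have ha0 : a ≠ 0 := by
    rintro rfl
    rw [zero_pow (by omega), zero_mul] at ha
    exact hκ0 ha.symm
  have hΓ := gam_semi R h hadd hσ hform ha hκ0
  set Γ₀ := gam R h ψ σ a hadd with hΓ₀
  have hΓe : Γ₀ e = a • e := gam_e R h hadd
  have hΓf : Γ₀ f = (a ^ q)⁻¹ • f := gam_f R h hadd
  have hΓW : ∀ w : WW B e f, Γ₀ w = (a ^ q)⁻¹ • (ψ w : V) := gam_W R h hadd
  -- the tame automorphism
  let θ := thP R hΓ
  have hθe : θ '' R.Rb e = R.Rb e := by
    rw [thP_Rb R hΓ h.ee, hΓe, Rb_smul R ha0 h.ee]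
  have hθf : θ '' R.Rb f = R.Rb f := by
    rw [thP_Rb R hΓ h.ff, hΓf, Rb_smul R (inv_ne_zero (pow_ne_zero _ ha0)) h.ff]
  let β₁ : (G ⧸ Subgroup.center G) ≃* (G ⧸ Subgroup.center G) := β'.trans θ.symm
  have hβ₁ : ∀ x, β₁ x = θ.symm (β' x) := fun x => rfl
  have hσq : ∀ x : F, σ (x ^ q) = (σ x) ^ q := fun x => map_pow σ x q
  have hT : H.s0 = H.s0 := rfl
  have tame : Tame R β₁ h := by
    refine ⟨?_, ?_, ?_, ?_⟩
    · intro c hc
      rw [hβ₁, (H.s0 c hc).2, hs₀ c hc]
      apply θ.injective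
      rw [MulEquiv.apply_symm_apply]
      change _ = thP R hΓ (pk (R.T e c))
      rw [thP_T R hΓ h.ee hc, hΓe, T_smul R h.ee (by rw [← map_pow, ← map_add, hc, map_zero]), ← ha]
      congr 2
      ring
    · intro w s hs
      obtain ⟨s', hs', e1⟩ := H.he w s hs
      set r := σ.symm (s' / κ) with hr
      have hσr : σ r = s' / κ := by rw [hr, RingEquiv.apply_symm_apply]
      have hadmr : r + r ^ q + B (w : V) (w : V) = 0 := by
        apply σ.injective
        rw [map_add, map_add, map_pow, hσr, map_zero]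
        have h1 := hform w w
        have h2 : σ (B (w : V) (w : V)) = B (ψ w : V) (ψ w : V) / κ := by
          rw [h1]
          field_simp
        rw [h2, div_pow, hκq]
        field_simp
        linear_combination hs'
      refine ⟨r, hadmr, ?_⟩
      rw [hβ₁, e1]
      apply θ.injective
      rw [MulEquiv.apply_symm_apply]
      symm
      apply thP_of R hΓ
      intro y
      have ha₁ := adm_W R h w hadmr
      rw [E_ac R ha₁, E_ac R (adm_W R h (ψ w) hs'), ← hΓ.he_comm, hΓe, hΓW, he_smul_gen hF]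
      have e2 : a ^ q • (a ^ q)⁻¹ • (ψ w : V) = (ψ w : V) := by
        rw [smul_smul, mul_inv_cancel₀ (pow_ne_zero _ ha0), one_smul]
      rw [e2, hσr, mul_assoc, ha]
      congr 2
      field_simp
    · change (θ.symm ∘ β') '' _ = _
      rw [Set.image_comp, hg1, image_symm_eq θ hθe]
    · change (θ.symm ∘ β') '' _ = _
      rw [Set.image_comp, hg2, image_symm_eq θ hθf]
  have hid := Tame.eq_id R h tame
  have hβθ : ∀ x, β' x = θ x := by
    intro x
    have := hid x
    rw [hβ₁] at this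
    rw [← this, MulEquiv.apply_symm_apply, this]
  -- the final semilinear map
  let Γ : V →+ V := ((R.ac g⁻¹ : V ≃ₗ[F] V) : V →ₗ[F] V).toAddMonoidHom.comp Γ₀
  have hΓap : ∀ y, Γ y = R.ac g⁻¹ (Γ₀ y) := fun y => rfl
  have hsemi : SemiIso B σ Γ := by
    refine ⟨fun c x => ?_, fun x y => ?_, ?_⟩
    · rw [hΓap, hΓap, hΓ.smul, map_smul]
    · rw [hΓap, hΓap, R.iso, hΓ.form]
    · refine ⟨fun x y hxy => hΓ.bij.1 ?_, fun x => ?_⟩
      · rw [hΓap, hΓap] at hxy
        exact (R.ac g⁻¹).injective hxy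
      · obtain ⟨y, hy⟩ := hΓ.bij.2 (R.ac g x)
        refine ⟨y, ?_⟩
        rw [hΓap, hy, ac_inv_ac]
  refine ⟨σ, Γ, hsemi, fun s s' hss' => ?_⟩
  have e1 : β (pk s) = (pk g)⁻¹ * β' (pk s) * pk g := by
    rw [hβ', nrm_apply]
    group
  rw [e1, hβθ]
  have e2 : θ (pk s) = pk (thF R hΓ s) := rfl
  rw [e2, ← pk_inv, ← pk_mul, ← pk_mul]
  congr 1
  apply R.ext'
  intro x
  obtain ⟨y, rfl⟩ := hsemi.bij.2 x
  rw [hss', hΓap, hΓap, ac_mul, ac_mul, ac_ac_inv, thF_spec]

end Rep

end Cfsg.Agent.Lib.AutPSU
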