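/-
Automorphisms of `PSU`: the structure of the outer automorphism group, abstractly.
-/
import Mathlib
import Cfsg.Agent.Lib.AutPSU.MainAbs
import Cfsg.Prelude.Def_KGroupFacts

set_option autoImplicit false
set_option linter.unusedSectionVars false
set_option linter.unusedVariables false
set_option linter.unusedSimpArgs false

namespace Cfsg.Agent.Lib.AutPSU

open Module Cfsg.Agent.Lib.Classical Cfsg.Agent.Lib.Classical.UT

variable {F : Type*} [Field F] [Fintype F] {q : ℕ} {hF : Fintype.card F = q ^ 2}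
variable {V : Type*} [AddCommGroup V] [Module F V] [FiniteDimensional F V]
variable {B : V →ₛₗ[conjQ hF] V →ₗ[F] F} {G : Type*} [Group G] (R : Rep B G)

namespace SemiIso

variable {σ σ' : F ≃+* F} {Γ Γ' : V →+ V}

lemma comp (H : SemiIso B σ Γ) (H' : SemiIso B σ' Γ') : SemiIso B (σ * σ') (Γ.comp Γ') := by
  refine ⟨fun a x => ?_, fun x y => ?_, H.bij.comp H'.bij⟩
  · rw [AddMonoidHom.comp_apply, H'.smul, H.smul]
    rfl
  · rw [AddMonoidHom.comp_apply, AddMonoidHom.comp_apply, H.form, H'.form]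
    rfl

/-- The inverse map. -/
noncomputable def inv (H : SemiIso B σ Γ) : V →+ V := (AddEquiv.ofBijective Γ H.bij).symm.toAddMonoidHom

lemma inv_apply (H : SemiIso B σ Γ) (x : V) : Γ (H.inv x) = x := (AddEquiv.ofBijective Γ H.bij).apply_symm_apply x

lemma inv_apply' (H : SemiIso B σ Γ) (x : V) : H.inv (Γ x) = x := (AddEquiv.ofBijective Γ H.bij).symm_apply_apply x

lemma inv_semi (H : SemiIso B σ Γ) : SemiIso B σ.symm H.inv := by
  refine ⟨fun a x => ?_, fun x y => ?_, (AddEquiv.ofBijective Γ H.bij).symm.bijective⟩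
  · apply H.bij.1
    rw [inv_apply, H.smul, inv_apply, RingEquiv.apply_symm_apply]
  · apply σ.injective
    rw [← H.form, inv_apply, inv_apply, RingEquiv.apply_symm_apply]

/-- The linear case: scalar multiples. -/
lemma smul_left (H : SemiIso B σ Γ) {c : F} (hc : c ^ q * c = 1) : SemiIso B σ (c • Γ) := by
  have hc0 : c ≠ 0 := by
    rintro rfl
    have hq := one_lt_q hF
    rw [zero_pow (by omega), mul_zero] at hc
    exact zero_ne_one hc
  refine ⟨fun a x => ?_, fun x y => ?_, ?_⟩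
  · simp only [AddMonoidHom.smul_apply, H.smul]
    rw [smul_comm]
  · simp only [AddMonoidHom.smul_apply, smul_l, smul_r, H.form]
    linear_combination (σ (B x y)) * hc
  · constructor
    · intro x y h
      simp only [AddMonoidHom.smul_apply] at h
      exact H.bij.1 (smul_right_injective V hc0 h)
    · intro x
      obtain ⟨y, hy⟩ := H.bij.2 (c⁻¹ • x)
      refine ⟨y, ?_⟩
      simp only [AddMonoidHom.smul_apply]
      rw [hy, smul_smul, mul_inv_cancel₀ hc0, one_smul]

end SemiIso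

namespace Rep

include R

/-- `β` is induced by a semilinear isometry. -/
def Ind (R : Rep B G) (β : (G ⧸ Subgroup.center G) ≃* (G ⧸ Subgroup.center G)) (σ : F ≃+* F) (Γ : V →+ V) : Prop :=
  SemiIso B σ Γ ∧ ∀ s s' : G, (∀ y, R.ac s' (Γ y) = Γ (R.ac s y)) → β (pk s) = pk s'

variable [Finite G] {σ σ' : F ≃+* F} {Γ Γ' : V →+ V} {β β' : (G ⧸ Subgroup.center G) ≃* (G ⧸ Subgroup.center G)}

lemma ind_thP (H : SemiIso B σ Γ) : Ind R (thP R H) σ Γ := ⟨H, fun s s' h => thP_of R H h⟩

lemma Ind.apply (h : Ind R β σ Γ) (s : G) : β (pk s) = pk (thF R h.1 s) := h.2 _ _ (thF_spec R h.1 s)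

lemma Ind.unique (h : Ind R β σ Γ) (h' : Ind R β' σ' Γ) : β = β' := by
  ext x
  obtain ⟨s, rfl⟩ := exists_pk x
  rw [h'.2 _ _ (thF_spec R h.1 s), h.apply R s]

lemma Ind.comp (h : Ind R β σ Γ) (h' : Ind R β' σ' Γ') : Ind R (β * β') (σ * σ') (Γ.comp Γ') := by
  refine ⟨h.1.comp h'.1, fun s s'' hs => ?_⟩
  set s' := thF R h'.1 s with hs'
  have e1 : β' (pk s) = pk s' := h'.apply R s
  rw [MulAut.mul_apply, e1]
  apply h.2
  intro x
  obtain ⟨y, rfl⟩ := h'.1.bij.2 x
  rw [← AddMonoidHom.comp_apply, hs, AddMonoidHom.comp_apply, hs', thF_spec]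

/-- Conjugation is induced by the element itself. -/
noncomputable def acA (R : Rep B G) (g : G) : V →+ V := ((R.ac g : V ≃ₗ[F] V) : V →ₗ[F] V).toAddMonoidHom

lemma acA_apply (g : G) (x : V) : acA R g x = R.ac g x := rfl

lemma ind_conj (g : G) : Ind R (MulAut.conj (pk g)) 1 (acA R g) := by
  refine ⟨⟨fun a x => (R.ac g).map_smul a x, fun x y => R.iso g x y, (R.ac g).bijective⟩, fun s s' hs => ?_⟩
  rw [MulAut.conj_apply, ← pk_inv, ← pk_mul, ← pk_mul]
  congr 1
  apply R.ext'
  intro x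
  have h1 := hs (R.ac g⁻¹ x)
  simp only [acA_apply, ac_ac_inv] at h1
  rw [h1, ac_mul, ac_mul]

lemma Ind.T (h : Ind R β σ Γ) {u : V} (hu : B u u = 0) {c : F} (hc : c + c ^ q = 0) :
    β (pk (R.T u c)) = pk (R.T (Γ u) (σ c)) := by
  have hu' : B (Γ u) (Γ u) = 0 := by rw [h.1.form, hu, map_zero]
  have hc' : σ c + (σ c) ^ q = 0 := by rw [← map_pow, ← map_add, hc, map_zero]
  apply h.2
  intro y
  rw [T_ac R hu' hc', T_ac R hu hc, h.1.tv_comm]

/-- Elements of every norm-fixed value in the complement of a hyperbolic pair. -/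
lemma exists_norm_W {e f : V} (h : HP B e f) {ν : F} (hν : ν ^ q = ν) : ∃ w : WW B e f, B (w : V) w = ν := by
  have hS := R.S
  have hC := BW_symm hS e f
  have hCN := BW_nondeg h hS R.N
  have hfr := finrank_WW h
  have hdim := R.dim
  have hnt : Nontrivial (WW B e f) := Module.nontrivial_of_finrank_pos (R := F) (by omega)
  obtain ⟨d, hd⟩ := exists_aniso hC hCN hnt
  have hd' : B (d : V) d ≠ 0 := hd
  obtain ⟨ρ, hρ⟩ := exists_norm (hF := hF) (ν := ν / B (d : V) d) (by
    rw [div_pow, hν, flip_eq hS])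
  refine ⟨ρ • d, ?_⟩
  rw [Submodule.coe_smul, smul_l, smul_r, ← mul_assoc, hρ]
  field_simp

/-- A semilinear isometry fixing all isotropic lines is scalar. -/
theorem fix_lines {τ : F ≃+* F} {Λ : V →+ V} (H : SemiIso B τ Λ) (hfix : ∀ u : V, u ≠ 0 → B u u = 0 → ∃ μ : F, Λ u = μ • u) :
    τ = 1 ∧ ∃ l : F, ∀ x, Λ x = l • x := by
  have hS := R.S
  have hdim := R.dim
  obtain ⟨e, he0, hee⟩ := exists_isotropic hS R.N (show 2 ≤ finrank F V by omega)
  obtain ⟨f, h⟩ := exists_HP hS R.N he0 hee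
  obtain ⟨μ₁, hμ₁⟩ := hfix e he0 hee
  obtain ⟨μ₂, hμ₂⟩ := hfix f h.f_ne h.ff
  have key : ∀ a : F, τ a * μ₁ = a * μ₂ := by
    intro a
    obtain ⟨w, hw⟩ := exists_norm_W R h (ν := -(a + a ^ q)) (by
      rw [conjQ_neg hF]
      congr 1
      have : (a + a ^ q) ^ q = a ^ q + (a ^ q) ^ q := map_add (conjQ hF) _ _
      rw [this, pow_q_pow_q hF]
      ring)
    have hwm := mem_WW.mp w.2
    have hwe := flip_zero hS hwm.1
    have hwf := flip_zero hS hwm.2
    set x := a • e + f + (w : V) with hx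
    have hxx : B x x = 0 := by
      rw [hx]
      simp only [add_l, add_r, smul_l, smul_r, h.ee, h.ef, h.ff, h.fe, hwm.1, hwm.2, hwe, hwf, hw]
      ring
    have hx0 : x ≠ 0 := by
      intro h0
      have h1 : B e x = 1 := by
        rw [hx]
        simp only [add_r, smul_r, h.ee, h.ef, hwm.1]
        ring
      rw [h0, zero_r] at h1
      exact zero_ne_one h1
    obtain ⟨μ, hμ⟩ := hfix x hx0 hxx
    have hμ₁0 : μ₁ ≠ 0 := by
      rintro rfl
      rw [zero_smul] at hμ₁
      exact he0 (by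
        apply H.bij.1
        rw [hμ₁, map_zero])
    have hμ₂0 : μ₂ ≠ 0 := by
      rintro rfl
      rw [zero_smul] at hμ₂
      exact h.f_ne (by
        apply H.bij.1
        rw [hμ₂, map_zero])
    have hΛw1 : B e (Λ w) = 0 := by
      have h0 := H.form e w
      rw [hwm.1, map_zero, hμ₁, smul_l] at h0
      exact (mul_eq_zero.mp h0).resolve_left (pow_ne_zero _ hμ₁0)
    have hΛw2 : B f (Λ w) = 0 := by
      have h0 := H.form f w
      rw [hwm.2, map_zero, hμ₂, smul_l] at h0
      exact (mul_eq_zero.mp h0).resolve_left (pow_ne_zero _ hμ₂0)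
    have hΛx : Λ x = (τ a * μ₁) • e + μ₂ • f + Λ w := by
      rw [hx, map_add, map_add, H.smul, hμ₁, hμ₂, smul_smul]
    have h1 := congrArg (B e) hΛx
    rw [hμ, smul_r, hx] at h1
    simp only [add_r, smul_r, h.ee, h.ef, hwm.1, hΛw1] at h1
    have h2 := congrArg (B f) hΛx
    rw [hμ, smul_r, hx] at h2
    simp only [add_r, smul_r, h.ff, h.fe, hwm.2, hΛw2] at h2
    have e1 : μ = μ₂ := by linear_combination h1
    rw [e1] at h2
    linear_combination -h2
  have h1 := key 1
  rw [map_one, one_mul, one_mul] at h1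
  have hμ₁0 : μ₁ ≠ 0 := by
    rintro rfl
    rw [zero_smul] at hμ₁
    exact he0 (by
      apply H.bij.1
      rw [hμ₁, map_zero])
  have hτ : τ = 1 := by
    ext a
    have := key a
    rw [h1] at this
    exact mul_right_cancel₀ (by rwa [← h1]) this
  refine ⟨hτ, ?_⟩
  subst hτ
  let L : V →ₗ[F] V := { toFun := Λ, map_add' := map_add Λ, map_smul' := fun a x => H.smul a x }
  exact scalar_of_fix hS R.N (by omega) L hfix

/-- Uniqueness of the field automorphism and of the semilinear map up to scalars. -/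
theorem Ind.uniq (h : Ind R β σ Γ) (h' : Ind R β σ' Γ') : σ = σ' ∧ ∃ l : F, ∀ x, Γ' x = l • Γ x := by
  have hinv := h.1.inv_semi
  have hΛ : SemiIso B (σ.symm * σ') (h.1.inv.comp Γ') := hinv.comp h'.1
  obtain ⟨ε, hε0, hε⟩ := exists_eps (hF := hF)
  have hfix : ∀ u : V, u ≠ 0 → B u u = 0 → ∃ μ : F, (h.1.inv.comp Γ') u = μ • u := by
    intro u hu0 huu
    have e1 := h.T R huu hε
    rw [h'.T R huu hε] at e1
    have hu1 : Γ u ≠ 0 := fun h0 => hu0 (h.1.bij.1 (by rw [h0, map_zero]))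
    have hu2 : B (Γ u) (Γ u) = 0 := by rw [h.1.form, huu, map_zero]
    have hu3 : B (Γ' u) (Γ' u) = 0 := by rw [h'.1.form, huu, map_zero]
    have hc1 : σ ε + (σ ε) ^ q = 0 := by rw [← map_pow, ← map_add, hε, map_zero]
    have hc2 : σ' ε + (σ' ε) ^ q = 0 := by rw [← map_pow, ← map_add, hε, map_zero]
    have hc0 : σ ε ≠ 0 := fun h0 => hε0 (by simpa using h0)
    obtain ⟨-, μ, hμ⟩ := pk_T_eq R hu1 hu2 hu3 hc0 hc1 hc2 e1.symm
    refine ⟨σ.symm μ, ?_⟩
    rw [AddMonoidHom.comp_apply, hμ, hinv.smul, h.1.inv_apply']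
  obtain ⟨h1, l, hl⟩ := fix_lines R hΛ hfix
  refine ⟨?_, σ l, fun x => ?_⟩
  · have h2 : σ * (σ.symm * σ') = σ * 1 := by rw [h1]
    rw [← mul_assoc, mul_one] at h2
    have h3 : σ * σ.symm = 1 := by
      ext a
      exact σ.apply_symm_apply a
    rw [h3, one_mul] at h2
    exact h2.symm
  · have h2 := hl x
    rw [AddMonoidHom.comp_apply] at h2
    rw [← h.1.smul, ← h2, h.1.inv_apply]


/-! ### The outer automorphism group -/

omit [Finite G] in
lemma rf_mul {d : V} (hd : B d d ≠ 0) (u v : F) (x : V) : rf B d u (rf B d v x) = rf B d (u * v) x := by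
  simp only [rf_apply, add_r, smul_r]
  have e : B d d * (B d d)⁻¹ = 1 := mul_inv_cancel₀ hd
  have h1 : (u - 1) * (B d d)⁻¹ * (B d x + (v - 1) * (B d d)⁻¹ * B d x * B d d) = (u - 1) * (B d d)⁻¹ * (v * B d x) := by
    congr 1
    field_simp
    ring
  rw [h1, add_assoc, ← add_smul]
  congr 2
  ring

lemma semi_rf {d : V} (hd : B d d ≠ 0) {u : F} (hu : u ^ q * u = 1) :
    SemiIso B (1 : F ≃+* F) (rf B d u).toAddMonoidHom :=
  SemiIso.of_form R.N (fun a x => (rf B d u).map_smul a x) (fun x y => rf_iso R.S hd hu x y)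

/-- The subgroup of norm-one elements of the units. -/
abbrev U1 (F : Type*) [Field F] (q : ℕ) : Subgroup Fˣ := (powMonoidHom (q + 1) : Fˣ →* Fˣ).ker

omit R [Finite G] in
lemma U1_norm {u : U1 F q} : ((u : Fˣ) : F) ^ q * ((u : Fˣ) : F) = 1 := by
  have h1 : (u : Fˣ) ^ (q + 1) = 1 := MonoidHom.mem_ker.mp u.2
  have h2 := congrArg (fun x : Fˣ => (x : F)) h1
  simp only [Units.val_pow_eq_pow_val, Units.val_one] at h2
  rw [← pow_succ]
  exact h2

omit R [Finite G] in
lemma U1_mk {c : F} (hc0 : c ≠ 0) (hc : c ^ q * c = 1) : Units.mk0 c hc0 ∈ U1 F q := by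
  rw [MonoidHom.mem_ker]
  apply Units.ext
  simp only [powMonoidHom_apply, Units.val_pow_eq_pow_val, Units.val_one, Units.val_mk0]
  rw [pow_succ]
  exact hc

omit R [Finite G] in
lemma card_U1 (hF : Fintype.card F = q ^ 2) : Nat.card (U1 F q) = q + 1 := by
  classical
  have hq := one_lt_q hF
  rw [IsCyclic.card_powMonoidHom_ker, Nat.card_eq_fintype_card, Fintype.card_units, hF]
  apply Nat.gcd_eq_right
  refine ⟨q - 1, ?_⟩
  obtain ⟨r, rfl⟩ : ∃ r, q = r + 1 := ⟨q - 1, by omega⟩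
  simp only [Nat.add_sub_cancel]
  have : (r + 1) ^ 2 = (r + 1 + 1) * r + 1 := by ring
  omega

/-- The structure of the outer automorphism group. -/
theorem out_abs (p : ℕ) [hp : Fact p.Prime] [CharP F p] (hsurj : ∀ σ : F ≃+* F, ∃ Γ : V →+ V, SemiIso B σ Γ)
    (hnorm : ∀ t : V ≃ₗ[F] V, (∀ x y, B (t x) (t y) = B x y) → (LinearMap.det (t : V →ₗ[F] V)) ^ q * LinearMap.det (t : V →ₗ[F] V) = 1) :
    ∃ φ : Cfsg.Out (G ⧸ Subgroup.center G) →* (F ≃+* F), Function.Surjective φ ∧ IsCyclic φ.ker ∧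
      Nat.card φ.ker = Nat.gcd (finrank F V) (q + 1) := by
  classical
  have hS := R.S
  have hq := one_lt_q hF
  have hdim := R.dim
  -- the homomorphism to the field automorphisms
  have hex : ∀ β : (G ⧸ Subgroup.center G) ≃* (G ⧸ Subgroup.center G), ∃ (σ : F ≃+* F) (Γ : V →+ V), Ind R β σ Γ := by
    intro β
    obtain ⟨σ, Γ, h1, h2⟩ := main_abs R p β
    exact ⟨σ, Γ, h1, h2⟩
  choose S Gm hInd using hex
  have hSu : ∀ {β σ Γ}, Ind R β σ Γ → S β = σ := fun {β σ Γ} h => ((hInd β).uniq R h).1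
  let sig : MulAut (G ⧸ Subgroup.center G) →* (F ≃+* F) :=
    MonoidHom.mk' S (fun a b => hSu ((hInd a).comp R (hInd b)))
  have hsig : ∀ β, sig β = S β := fun β => rfl
  have hInn : Cfsg.Inn (G ⧸ Subgroup.center G) ≤ sig.ker := by
    rintro _ ⟨x, rfl⟩
    obtain ⟨s, rfl⟩ := exists_pk x
    rw [MonoidHom.mem_ker, hsig]
    exact hSu (ind_conj R s)
  let φ : Cfsg.Out (G ⧸ Subgroup.center G) →* (F ≃+* F) := QuotientGroup.lift _ sig hInn
  have hφmk : ∀ β, φ (QuotientGroup.mk β) = sig β := fun β => rfl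
  -- the diagonal automorphisms
  have hnt : Nontrivial V := nontrivial_V R
  obtain ⟨d, hd⟩ := exists_aniso hS R.N hnt
  have hrfH : ∀ u : U1 F q, SemiIso B (1 : F ≃+* F) (rf B d ((u : Fˣ) : F)).toAddMonoidHom := fun u => semi_rf R hd U1_norm
  let dg : U1 F q → MulAut (G ⧸ Subgroup.center G) := fun u => thP R (hrfH u)
  have hdgInd : ∀ u, Ind R (dg u) 1 (rf B d ((u : Fˣ) : F)).toAddMonoidHom := fun u => ind_thP R (hrfH u)
  have hdgmul : ∀ u v, dg (u * v) = dg u * dg v := by
    intro u v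
    have h1 := (hdgInd u).comp R (hdgInd v)
    have h2 : (rf B d ((u : Fˣ) : F)).toAddMonoidHom.comp (rf B d ((v : Fˣ) : F)).toAddMonoidHom =
        (rf B d (((u * v : U1 F q) : Fˣ) : F)).toAddMonoidHom := by
      ext x
      exact rf_mul R hd _ _ x
    rw [h2] at h1
    exact (hdgInd (u * v)).unique R h1
  let θ : U1 F q →* Cfsg.Out (G ⧸ Subgroup.center G) :=
    MonoidHom.mk' (fun u => QuotientGroup.mk (dg u)) (fun a b => by
      rw [hdgmul]
      rfl)
  have hθ : ∀ u, θ u = QuotientGroup.mk (dg u) := fun u => rfl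
  have hrange : θ.range = φ.ker := by
    ext x
    constructor
    · rintro ⟨u, rfl⟩
      rw [MonoidHom.mem_ker, hθ, hφmk, hsig]
      exact hSu (hdgInd u)
    · intro hx
      obtain ⟨β, rfl⟩ := QuotientGroup.mk_surjective x
      rw [MonoidHom.mem_ker, hφmk, hsig] at hx
      have hI := hInd β
      rw [hx] at hI
      have hsm : ∀ (a : F) (x : V), Gm β (a • x) = a • Gm β x := fun a x => hI.1.smul a x
      let L : V →ₗ[F] V := { toFun := Gm β, map_add' := map_add _, map_smul' := hsm }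
      let t : V ≃ₗ[F] V := LinearEquiv.ofBijective L hI.1.bij
      have ht : ∀ x, t x = Gm β x := fun x => rfl
      have hiso : ∀ x y, B (t x) (t y) = B x y := fun x y => by
        rw [ht, ht]
        exact hI.1.form x y
      have hn := hnorm t hiso
      set D := LinearMap.det (t : V →ₗ[F] V) with hD
      have hD0 : D ≠ 0 := by
        rintro h0
        rw [h0, mul_zero] at hn
        exact zero_ne_one hn
      let u : U1 F q := ⟨Units.mk0 D hD0, U1_mk hD0 hn⟩
      have hu : ((u : Fˣ) : F) = D := rfl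
      have hui : (D⁻¹) ^ q * D⁻¹ = 1 := by
        rw [inv_pow, ← mul_inv, hn, inv_one]
      have hDq : D ^ q * D = 1 := hn
      -- `t = s₀ ∘ rf(u)`
      obtain ⟨s₀, hs₀⟩ := R.exists_of_linear ((t : V →ₗ[F] V) ∘ₗ rf B d D⁻¹)
        (fun x y => by
          rw [LinearMap.comp_apply, LinearMap.comp_apply]
          change B (t _) (t _) = _
          rw [hiso, rf_iso hS hd hui])
        (by
          rw [LinearMap.det_comp, rf_det hd, ← hD, mul_inv_cancel₀ hD0])
      have hfac : (acA R s₀).comp (rf B d ((u : Fˣ) : F)).toAddMonoidHom = Gm β := by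
        ext x
        change R.ac s₀ (rf B d D x) = _
        rw [hs₀, LinearMap.comp_apply, rf_mul R hd, inv_mul_cancel₀ hD0]
        have h1 : rf B d 1 x = x := by simp [rf_apply]
        rw [h1]
        rfl
      have h1 := (ind_conj R s₀).comp R (hdgInd u)
      rw [hfac] at h1
      have h2 := hI.unique R h1
      refine ⟨u, ?_⟩
      rw [hθ, h2, eq_comm]
      change QuotientGroup.mk (MulAut.conj (pk s₀) * dg u) = _
      rw [QuotientGroup.eq]
      have e3 : (MulAut.conj (pk s₀) * dg u)⁻¹ * dg u = (dg u)⁻¹ * (MulAut.conj (pk s₀))⁻¹ * (dg u) := by group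
      rw [e3]
      have hnormal : (Cfsg.Inn (G ⧸ Subgroup.center G)).Normal := inferInstance
      have h4 := hnormal.conj_mem _ (Subgroup.inv_mem _ (⟨pk s₀, rfl⟩ : MulAut.conj (pk s₀) ∈ Cfsg.Inn (G ⧸ Subgroup.center G))) (dg u)⁻¹
      simpa using h4
  have hkerθ : θ.ker = (powMonoidHom (finrank F V) : U1 F q →* U1 F q).range := by
    ext u
    rw [MonoidHom.mem_ker, hθ, QuotientGroup.eq_one_iff]
    constructor
    · rintro ⟨x, hx⟩
      obtain ⟨s₀, rfl⟩ := exists_pk x
      have h1 := ind_conj R s₀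
      rw [hx] at h1
      obtain ⟨-, l, hl⟩ := (hdgInd u).uniq R h1
      -- `acA s₀ = l • rf u`
      have hiso1 : l ^ q * l = 1 := by
        obtain ⟨x₀, hx₀⟩ := exists_ne (0 : V)
        obtain ⟨y₀, hy₀⟩ := exists_ne_form R hx₀
        have h2 := R.iso s₀ x₀ y₀
        have h3 := rf_iso hS hd (U1_norm (u := u)) x₀ y₀
        have h4 : R.ac s₀ x₀ = l • rf B d ((u : Fˣ) : F) x₀ := hl x₀
        have h5 : R.ac s₀ y₀ = l • rf B d ((u : Fˣ) : F) y₀ := hl y₀
        rw [h4, h5, smul_l, smul_r, h3] at h2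
        have h6 : l ^ q * l * B x₀ y₀ = 1 * B x₀ y₀ := by linear_combination h2
        exact mul_right_cancel₀ hy₀ h6
      have hl0 : l ≠ 0 := by
        rintro rfl
        rw [mul_zero] at hiso1
        exact zero_ne_one hiso1
      -- the determinant
      have hlin : (R.ac s₀ : V →ₗ[F] V) = l • rf B d ((u : Fˣ) : F) := by
        ext x
        exact hl x
      have hdet : LinearMap.det (R.ac s₀ : V →ₗ[F] V) = 1 := by
        rw [← LinearEquiv.coe_det, R.det, Units.val_one]
      rw [hlin, LinearMap.det_smul, rf_det hd] at hdet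
      -- `u = l⁻¹ ^ n`
      have hli : (l⁻¹) ^ q * l⁻¹ = 1 := by
        rw [inv_pow, ← mul_inv, hiso1, inv_one]
      refine ⟨⟨Units.mk0 l⁻¹ (inv_ne_zero hl0), U1_mk (inv_ne_zero hl0) hli⟩, ?_⟩
      apply Subtype.ext
      apply Units.ext
      simp only [powMonoidHom_apply, SubmonoidClass.coe_pow, Units.val_pow_eq_pow_val, Units.val_mk0]
      rw [inv_pow]
      exact inv_eq_of_mul_eq_one_right hdet
    · rintro ⟨c, rfl⟩
      set c₀ : F := ((c : Fˣ) : F) with hc₀
      have hcn : c₀ ^ q * c₀ = 1 := U1_norm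
      have hc0 : c₀ ≠ 0 := (c : Fˣ).ne_zero
      have hcin : (c₀⁻¹) ^ q * c₀⁻¹ = 1 := by
        rw [inv_pow, ← mul_inv, hcn, inv_one]
      set u := (powMonoidHom (finrank F V) : U1 F q →* U1 F q) c with hu
      have hu0 : ((u : Fˣ) : F) = c₀ ^ finrank F V := by
        simp [hu, hc₀]
      obtain ⟨s₀, hs₀⟩ := R.exists_of_linear (c₀⁻¹ • rf B d ((u : Fˣ) : F))
        (fun x y => by
          simp only [LinearMap.smul_apply, smul_l, smul_r]
          rw [rf_iso hS hd U1_norm]
          linear_combination (B x y) * hcin)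
        (by
          rw [LinearMap.det_smul, rf_det hd, hu0, inv_pow, inv_mul_cancel₀ (pow_ne_zero _ hc0)])
      have h1 : (rf B d ((u : Fˣ) : F)).toAddMonoidHom = c₀ • acA R s₀ := by
        ext x
        change rf B d _ x = c₀ • R.ac s₀ x
        rw [hs₀, LinearMap.smul_apply, smul_smul, mul_inv_cancel₀ hc0, one_smul]
      have h2 : Ind R (MulAut.conj (pk s₀)) 1 (c₀ • acA R s₀) := by
        refine ⟨(ind_conj R s₀).1.smul_left hcn, fun s s' hs => (ind_conj R s₀).2 s s' fun y => ?_⟩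
        have h3 := hs y
        simp only [AddMonoidHom.smul_apply, map_smul] at h3
        exact smul_right_injective V hc0 h3
      rw [← h1] at h2
      exact ⟨pk s₀, ((hdgInd u).unique R h2).symm⟩
  refine ⟨φ, ?_, ?_, ?_⟩
  · intro σ
    obtain ⟨Γ, hΓ⟩ := hsurj σ
    refine ⟨QuotientGroup.mk (thP R hΓ), ?_⟩
    rw [hφmk, hsig]
    exact hSu (ind_thP R hΓ)
  · rw [← hrange]
    exact isCyclic_of_surjective θ.rangeRestrict θ.rangeRestrict_surjective
  · rw [← hrange]
    have h1 : Nat.card θ.ker * Nat.card θ.range = Nat.card (U1 F q) := by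
      rw [← Subgroup.index_ker, Subgroup.card_mul_index]
    have h2 : Nat.card (powMonoidHom (finrank F V) : U1 F q →* U1 F q).ker *
        Nat.card (powMonoidHom (finrank F V) : U1 F q →* U1 F q).range = Nat.card (U1 F q) := by
      rw [← Subgroup.index_ker, Subgroup.card_mul_index]
    rw [hkerθ] at h1
    have h3 : Nat.card (powMonoidHom (finrank F V) : U1 F q →* U1 F q).range ≠ 0 := Nat.card_pos.ne'
    have h4 : Nat.card θ.range = Nat.card (powMonoidHom (finrank F V) : U1 F q →* U1 F q).ker := by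
      apply Nat.eq_of_mul_eq_mul_left (Nat.pos_of_ne_zero h3)
      rw [h1, mul_comm, h2]
    rw [h4, IsCyclic.card_powMonoidHom_ker, card_U1 hF, Nat.gcd_comm]

end Rep

end Cfsg.Agent.Lib.AutPSU
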