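/-
Automorphisms of `PSU_n(q)`: the concrete statements for the standard Hermitian form.
-/
import Mathlib
import Cfsg.Agent.Lib.AutPSU.OutAbs
import Cfsg.Agent.Lib.AutPSL.Out
import Cfsg.Agent.Lib.Classical.UnitaryDet
import Cfsg.Prelude.Def_LieTypeDatum
import Cfsg.Prelude.Def_StandardType

set_option autoImplicit false
set_option linter.unusedSectionVars false
set_option linter.unusedVariables false
set_option linter.unusedSimpArgs false

namespace Cfsg.Agent.Lib.AutPSU

open Module Cfsg.Agent.Lib.Classical Cfsg.Agent.Lib.Classical.UT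
open scoped Matrix

variable {F : Type*} [Field F] [Fintype F] {q n : ℕ}

/-- The standard representation. -/
noncomputable def repSU (hF : Fintype.card F = q ^ 2) (hn : 3 ≤ n) (hs : ¬ (n = 3 ∧ q = 2)) :
    Rep (hermB hF n) (Cfsg.SU n F q) where
  ac := fromSU n F q
  inj := fromSU_injective
  iso := fromSU_iso hF
  det := fromSU_det
  surj := fun t h1 h2 => exists_fromSU hF t h1 h2
  S := hermB_symm hF n
  N := hermB_nondeg hF n
  dim := by simpa using hn
  gen := by
    simp only [Module.finrank_fin_fun]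
    by_cases h : n = 3
    · exact Or.inr fun h' => hs ⟨h, h'⟩
    · exact Or.inl h

/-- The entrywise map as an additive map. -/
def vecA (σ : F ≃+* F) : (Fin n → F) →+ (Fin n → F) where
  toFun := RC.vecCongr σ
  map_zero' := by
    funext i
    simp [RC.vecCongr]
  map_add' x y := by
    funext i
    simp [RC.vecCongr]

lemma vecA_apply (σ : F ≃+* F) (x : Fin n → F) : vecA σ x = RC.vecCongr σ x := rfl

lemma vecA_symm (σ : F ≃+* F) (x : Fin n → F) : vecA σ (vecA σ.symm x) = x := by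
  funext i
  simp [vecA_apply, RC.vecCongr]

lemma vecA_symm' (σ : F ≃+* F) (x : Fin n → F) : vecA σ.symm (vecA σ x) = x := by
  funext i
  simp [vecA_apply, RC.vecCongr]

lemma semi_vecA (hF : Fintype.card F = q ^ 2) (σ : F ≃+* F) : SemiIso (hermB hF n) σ (vecA σ) := by
  apply SemiIso.of_form (hermB_nondeg hF n)
  · intro a x
    funext i
    simp [vecA_apply, RC.vecCongr]
  · intro x y
    rw [hermB_apply, hermB_apply, vecA_apply, vecA_apply, RC.hermForm_congr]

/-- A semilinear isometry is a general unitary matrix followed by a field automorphism. -/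
theorem exists_matrix (hF : Fintype.card F = q ^ 2) {σ : F ≃+* F} {Γ : (Fin n → F) →+ (Fin n → F)}
    (H : SemiIso (hermB hF n) σ Γ) : ∃ g : Matrix.GeneralLinearGroup (Fin n) F, g ∈ Cfsg.GU n F q ∧
      ∀ y, Matrix.mulVec (g : Matrix (Fin n) (Fin n) F) (vecA σ y) = Γ y := by
  have hv := (semi_vecA (n := n) hF σ.symm)
  have hL := H.comp hv
  have hone : σ * σ.symm = 1 := by
    ext a
    exact σ.apply_symm_apply a
  rw [hone] at hL
  let L : (Fin n → F) →ₗ[F] (Fin n → F) :=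
    { toFun := Γ.comp (vecA σ.symm), map_add' := map_add _, map_smul' := fun a x => hL.smul a x }
  have hLa : ∀ x, L x = Γ (vecA σ.symm x) := fun x => rfl
  let M : Matrix (Fin n) (Fin n) F := LinearMap.toMatrix' L
  have hM : ∀ x, Matrix.mulVec M x = L x := fun x => LinearMap.toMatrix'_mulVec L x
  let t : (Fin n → F) ≃ₗ[F] (Fin n → F) := LinearEquiv.ofBijective L hL.bij
  have hdet : M.det ≠ 0 := by
    have h1 : M.det = LinearMap.det L := LinearMap.det_toMatrix' L
    have h2 : LinearMap.det L = ((LinearEquiv.det t : Fˣ) : F) := by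
      rw [LinearEquiv.coe_det]
      rfl
    rw [h1, h2]
    exact Units.ne_zero _
  have hiso : ∀ u v, Cfsg.hermForm n F q (Matrix.mulVec M u) (Matrix.mulVec M v) = Cfsg.hermForm n F q u v := by
    intro u v
    rw [hM, hM]
    have := hL.form v u
    rw [hermB_apply, hermB_apply] at this
    exact this
  refine ⟨(mkGU M hdet hiso).1, (mkGU M hdet hiso).2, fun y => ?_⟩
  change Matrix.mulVec M (vecA σ y) = Γ y
  rw [hM, hLa, vecA_symm']

lemma fromSU_mat (g : Cfsg.SU n F q) (x : Fin n → F) :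
    fromSU n F q g x = Matrix.mulVec ((g.1 : Matrix.SpecialLinearGroup (Fin n) F) : Matrix (Fin n) (Fin n) F) x :=
  fromSU_apply g x

/-- Every automorphism of `PSU` is induced by a semilinear map. -/
theorem exists_semilinear (hF : Fintype.card F = q ^ 2) (hn : 3 ≤ n) (hs : ¬ (n = 3 ∧ q = 2))
    (β : MulAut (Cfsg.PSU n F q)) :
    ∃ (g : Matrix.GeneralLinearGroup (Fin n) F) (σ : F ≃+* F), g ∈ Cfsg.GU n F q ∧ Cfsg.IsInducedBySemilinearPSU g σ β := by
  obtain ⟨p, k, hp, -, hch⟩ := exists_prime_pow_of_card_eq_sq hF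
  haveI := Fact.mk hp
  obtain ⟨σ, Γ, H, hind⟩ := Rep.main_abs (repSU hF hn hs) p β
  obtain ⟨g, hg, hgΓ⟩ := exists_matrix hF H
  refine ⟨g, σ, hg, fun s s' hss => ?_⟩
  apply hind
  intro y
  change fromSU n F q s' (Γ y) = Γ (fromSU n F q s y)
  rw [fromSU_mat, fromSU_mat, hss, ← hgΓ, ← hgΓ, Matrix.mulVec_mulVec]
  have h1 : ((g : Matrix (Fin n) (Fin n) F) * (((s : Matrix.SpecialLinearGroup (Fin n) F) : Matrix (Fin n) (Fin n) F).map σ) *
      ((g⁻¹ : Matrix.GeneralLinearGroup (Fin n) F) : Matrix (Fin n) (Fin n) F)) * (g : Matrix (Fin n) (Fin n) F) =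
      (g : Matrix (Fin n) (Fin n) F) * (((s : Matrix.SpecialLinearGroup (Fin n) F) : Matrix (Fin n) (Fin n) F).map σ) := by
    rw [Matrix.mul_assoc, ← Units.val_mul, inv_mul_cancel, Units.val_one, Matrix.mul_one]
  rw [h1, ← Matrix.mulVec_mulVec]
  congr 1
  rw [vecA_apply, vecA_apply]
  exact (RC.vecCongr_mulVec σ _ y).symm

theorem gammaPSU_top (hF : Fintype.card F = q ^ 2) (hn : 3 ≤ n) (hs : ¬ (n = 3 ∧ q = 2)) :
    Cfsg.gammaPSU n F q = ⊤ := by
  rw [eq_top_iff]
  intro β _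
  obtain ⟨g, σ, hg, h⟩ := exists_semilinear hF hn hs β
  exact Subgroup.subset_closure ⟨g, σ, hg, h⟩

lemma suCongr_coe (σ : F ≃+* F) (s : Cfsg.SU n F q) :
    (((RC.suCongr σ n q s : Cfsg.SU n F q) : Matrix.SpecialLinearGroup (Fin n) F) : Matrix (Fin n) (Fin n) F) =
      ((s : Matrix.SpecialLinearGroup (Fin n) F) : Matrix (Fin n) (Fin n) F).map σ := rfl

lemma psuCongr_mk (σ : F ≃+* F) (s : Cfsg.SU n F q) :
    RC.psuCongr σ n q (QuotientGroup.mk s) = QuotientGroup.mk (RC.suCongr σ n q s) := rfl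

/-- The factorisation of an automorphism. -/
theorem exists_factor (hF : Fintype.card F = q ^ 2) (hn : 3 ≤ n) (hs : ¬ (n = 3 ∧ q = 2))
    (β : MulAut (Cfsg.PSU n F q)) :
    ∃ (δ φ : MulAut (Cfsg.PSU n F q)) (σ : F ≃+* F), Cfsg.IsInnerDiagonalAutPSU δ ∧ Cfsg.IsFieldAutPSUOf σ φ ∧ β = δ * φ := by
  obtain ⟨g, σ, hg, hind⟩ := exists_semilinear hF hn hs β
  let φ : MulAut (Cfsg.PSU n F q) := RC.psuCongr σ n q
  refine ⟨β * φ⁻¹, φ, σ, ⟨g, hg, fun s s' hss => ?_⟩, fun s s' hss => ?_, by group⟩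
  · set s₀ := (RC.suCongr σ n q).symm s with hs₀
    have e1 : φ (QuotientGroup.mk s₀) = QuotientGroup.mk s := by
      change RC.psuCongr σ n q (QuotientGroup.mk s₀) = _
      rw [psuCongr_mk, hs₀, MulEquiv.apply_symm_apply]
    have e2 : φ⁻¹ (QuotientGroup.mk s) = QuotientGroup.mk s₀ := by
      rw [← e1]
      exact φ.symm_apply_apply _
    rw [MulAut.mul_apply, e2]
    apply hind
    have e3 : ((s₀ : Matrix.SpecialLinearGroup (Fin n) F) : Matrix (Fin n) (Fin n) F).map σ =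
        ((s : Matrix.SpecialLinearGroup (Fin n) F) : Matrix (Fin n) (Fin n) F) := by
      rw [← suCongr_coe, hs₀, MulEquiv.apply_symm_apply]
    rw [e3]
    exact hss
  · change RC.psuCongr σ n q (QuotientGroup.mk s) = _
    rw [psuCongr_mk]
    congr 1
    apply Subtype.ext
    apply Subtype.ext
    rw [suCongr_coe]
    exact hss.symm

/-- The structure of `Out(PSU_n(q))`. -/
theorem out_psu {p f : ℕ} [hp : Fact p.Prime] (hf : 1 ≤ f) (hq : q = p ^ f) (hF : Fintype.card F = q ^ 2) (hn : 3 ≤ n)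
    (h32 : ¬ (n = 3 ∧ q = 2)) :
    ∃ φ : Cfsg.Out (Cfsg.PSU n F q) →* Multiplicative (ZMod (2 * f)), Function.Surjective φ ∧ IsCyclic φ.ker ∧
      Nat.card φ.ker = Nat.gcd n (q + 1) := by
  have hF' : Fintype.card F = p ^ (2 * f) := by
    rw [hF, hq, ← pow_mul, mul_comm]
  have hch : CharP F p := by
    obtain ⟨r, hr⟩ := CharP.exists F
    obtain ⟨m, hrp, hm⟩ := FiniteField.card F r
    have h1 : p ∣ r ^ (m : ℕ) := by
      rw [← hm, hF']
      exact dvd_pow_self p (by omega)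
    have h2 : p = r := (Nat.prime_dvd_prime_iff_eq hp.out hrp).1 (hp.out.dvd_of_dvd_pow h1)
    rw [h2]
    exact hr
  obtain ⟨e⟩ := Cfsg.Agent.Lib.AutPSL.exists_gal_iso hF' (by omega : 1 ≤ 2 * f)
  have hnorm : ∀ t : (Fin n → F) ≃ₗ[F] (Fin n → F), (∀ x y, hermB hF n (t x) (t y) = hermB hF n x y) →
      (LinearMap.det (t : (Fin n → F) →ₗ[F] (Fin n → F))) ^ q * LinearMap.det (t : (Fin n → F) →ₗ[F] (Fin n → F)) = 1 := by
    intro t ht
    have hM : ∀ x, Matrix.mulVec (LinearMap.toMatrix' (t : (Fin n → F) →ₗ[F] (Fin n → F))) x = t x :=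
      fun x => LinearMap.toMatrix'_mulVec _ x
    have h1 := det_pow_eq_one hF (LinearMap.toMatrix' (t : (Fin n → F) →ₗ[F] (Fin n → F))) (by
      intro u v
      rw [hM, hM]
      have := ht v u
      rw [hermB_apply, hermB_apply] at this
      exact this)
    rw [LinearMap.det_toMatrix'] at h1
    rw [← pow_succ]
    exact h1
  obtain ⟨φ₀, h1, h2, h3⟩ := Rep.out_abs (repSU hF hn h32) p (fun σ => ⟨vecA σ, semi_vecA hF σ⟩) hnorm
  have hker : (e.toMonoidHom.comp φ₀).ker = φ₀.ker := by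
    ext x
    simp [MonoidHom.mem_ker]
  refine ⟨e.toMonoidHom.comp φ₀, e.surjective.comp h1, ?_, ?_⟩
  · rw [hker]
    exact h2
  · rw [hker, h3, Module.finrank_fin_fun]

end Cfsg.Agent.Lib.AutPSU
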